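import Cfsg.Agent.H29.RankOneSL
import Cfsg.Agent.RootGroups.Basic

/-!
Images of `SL₂` are rank one pairs; sets of subgroups whose pairs commute or are images of `SL₂`.
-/

set_option autoImplicit false

open Cfsg CfsgLib.RankOne Cfsg.Agent.H29.RankOneSL
open scoped commutatorElement

namespace CfsgLib.FillTv

variable {G : Type*} [Group G] {k : Type*} [Field k] {A B : Subgroup G} {S : Set (Subgroup G)}

lemma map_conjBy {H : Type*} [Group H] (φ : H →* G) (A : Subgroup H) (g : H) :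
    (conjBy A g).map φ = conjBy (A.map φ) (φ g) := by
  rw [conjBy, conjBy, Subgroup.map_map, Subgroup.map_map]
  congr 1
  ext x
  simp

/-- An image of `SL₂` with central kernel is a rank one pair. -/
theorem isRankOnePair_of_psl2 (h : IsPSL2PairOver k A B) : IsRankOnePair A B := by
  obtain ⟨φ, -, hker, rfl, rfl⟩ := h
  have hc : ∀ {z : Matrix.SpecialLinearGroup (Fin 2) k}, φ z = 1 → ∀ g, g * z = z * g :=
    fun hz => Subgroup.mem_center_iff.1 (hker hz)
  have hup : ∀ t : k, φ (up t) = 1 → t = 0 := fun t ht => by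
    have := congrArg (fun g : Matrix.SpecialLinearGroup (Fin 2) k => g.1 0 0) (hc ht (lo 1))
    simpa [up_val, lo_val, Matrix.mul_apply, Fin.sum_univ_two] using this
  have hlo : ∀ t : k, φ (lo t) = 1 → t = 0 := fun t ht => by
    have := congrArg (fun g : Matrix.SpecialLinearGroup (Fin 2) k => g.1 0 0) (hc ht (up 1))
    simpa [up_val, lo_val, Matrix.mul_apply, Fin.sum_univ_two] using this
  have hnil : ∀ H : Subgroup (Matrix.SpecialLinearGroup (Fin 2) k), Group.IsNilpotent H →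
      Group.IsNilpotent (H.map φ) := fun H hH =>
    haveI := hH
    Group.nilpotent_of_surjective (φ.subgroupMap H) (φ.subgroupMap_surjective H)
  have hp := isRankOnePair (k := k)
  refine ⟨fun e => ?_, hnil _ hp.nilpotent_right, hnil _ hp.nilpotent_left, ?_, ?_⟩
  · have h1 : φ (lo (1 : k)) ∈ (upperUnipotentSL2 k).map φ :=
      e.symm ▸ Subgroup.mem_map_of_mem φ (mem_lower.2 ⟨1, rfl⟩)
    obtain ⟨u, hu, he⟩ := Subgroup.mem_map.1 h1
    obtain ⟨t, rfl⟩ := mem_upper.1 hu
    have hz : φ ((up t)⁻¹ * lo 1) = 1 := by rw [map_mul, map_inv, he, inv_mul_cancel]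
    have := congrArg (fun g : Matrix.SpecialLinearGroup (Fin 2) k => g.1 1 1) (hc hz (up 1))
    simp [up_inv, up_val, lo_val, Matrix.mul_apply, Fin.sum_univ_two] at this
  · rintro _ ⟨u, hu, rfl⟩ hu1
    obtain ⟨t, rfl⟩ := mem_upper.1 hu
    have ht : t ≠ 0 := fun e => hu1 (by rw [e, up_zero, map_one])
    refine ⟨φ (lo t⁻¹), Subgroup.mem_map_of_mem φ (mem_lower.2 ⟨_, rfl⟩),
      fun e => inv_ne_zero ht (hlo _ e), ?_⟩
    rw [← map_inv, ← map_inv, ← map_conjBy, ← map_conjBy, cond_right ht]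
  · rintro _ ⟨u, hu, rfl⟩ hu1
    obtain ⟨t, rfl⟩ := mem_lower.1 hu
    have ht : t ≠ 0 := fun e => hu1 (by rw [e, lo_zero, map_one])
    refine ⟨φ (up t⁻¹), Subgroup.mem_map_of_mem φ (mem_upper.2 ⟨_, rfl⟩),
      fun e => inv_ne_zero ht (hup _ e), ?_⟩
    rw [← map_inv, ← map_inv, ← map_conjBy, ← map_conjBy, cond_left ht]

lemma conj_eq_of_commute {g : G} (h : ∀ x ∈ A, g * x = x * g) : conjBy A g⁻¹ = A := by
  refine conjBy_eq_self_iff.2 (inv_mem (Subgroup.mem_normalizer_iff.2 fun x => ?_))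
  constructor
  · intro hx
    rwa [h x hx, mul_inv_cancel_right]
  · intro hx
    have e : g * x = g * x * g⁻¹ * g := by group
    rw [← h _ hx] at e
    exact mul_left_cancel e ▸ hx

lemma not_rankOne_of_commute (h : ⁅A, B⁆ = ⊥) : ¬ IsRankOnePair A B := fun hp => by
  obtain ⟨a, ha, ha1⟩ := nonidentity_left hp
  obtain ⟨b, hb, -, he⟩ := hp.cond_left a ha ha1
  have hc := RootGroups.commutator_eq_bot_iff.1 h
  refine hp.ne ?_
  have e1 : conjBy A b⁻¹ = A := conj_eq_of_commute fun x hx => (hc x hx b hb).symm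
  have e2 : conjBy B a⁻¹ = B := conj_eq_of_commute fun x hx => hc a ha x hx
  rw [← e1, he, e2]

/-- Pairs commute or are images of `SL₂(k)`: a degenerate set of `k`-root subgroups. -/
theorem kRoot_degenerate (hcomm : ∀ A ∈ S, IsMulCommutative A) (hne : ∀ A ∈ S, A ≠ ⊥)
    (hgen : (⨆ A ∈ S, A) = ⊤) (hconj : ∀ A ∈ S, ∀ g : G, conjBy A g ∈ S)
    (hpair : ∀ A ∈ S, ∀ B ∈ S, ⁅A, B⁆ = ⊥ ∨ IsPSL2PairOver k A B) :
    IsKRootSubgroupSet k S ∧ IsDegenerateRootSet S := by
  have hS : IsRootSubgroupSet S := ⟨hcomm, hne, hgen, hconj, fun A hA B hB =>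
    (hpair A hA B hB).imp_right fun h => Or.inl (isRankOnePair_of_psl2 h)⟩
  refine ⟨⟨hS, fun A hA B hB h => (hpair A hA B hB).resolve_left fun e =>
    not_rankOne_of_commute e h⟩, fun A hA B hB hc => ?_⟩
  rcases hpair A hA B hB with h | h
  · exact hne _ (h ▸ hc.1) rfl
  · exact RootGroups.not_case hS hB (isRankOnePair_of_psl2 h) hc

/-- A connected set of root subgroups is a class. -/
theorem class_of_connected (hS : IsRootSubgroupSet S) (hne : S.Nonempty)
    (hconn : IsConnectedFamily (FAdj S) S) : IsRootSubgroupClass S := by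
  refine ⟨hS, hne, fun A hA B hB => ?_⟩
  have h := hconn A hA B hB
  clear hB
  induction h with
  | refl => exact ⟨1, (conjBy_one A).symm⟩
  | tail _ h ih =>
    obtain ⟨g, hg⟩ := ih
    obtain ⟨x, -, hx⟩ := right_mem_unipotent h.2.2
    exact ⟨x * g, by rw [← conjBy_conjBy, ← hg]; exact hx⟩

end CfsgLib.FillTv
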