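import Cfsg.Agent.FillTv.Restrict

/-!
Families in which two members commute, generate an image of `SL₂`, or are in the commutator case.
-/

set_option autoImplicit false

open Cfsg
open scoped commutatorElement

namespace CfsgLib.FillTv

variable {G : Type*} [Group G] {k : Type*} [Field k] {A B : Subgroup G} {K : Subgroup G}
  {S : Set (Subgroup G)}

/-- The commutator case for parametrised subgroups with bilinear commutators. -/
theorem case_of_param {C : Subgroup G} {f g h : k → G}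
    (hA : ∀ x, x ∈ A ↔ ∃ c, x = f c) (hB : ∀ x, x ∈ B ↔ ∃ c, x = g c) (hC : ∀ x, x ∈ C ↔ ∃ c, x = h c)
    (hf : f 0 = 1) (hg : g 0 = 1)
    (hcom : ∀ c d, f c * g d * (f c)⁻¹ * (g d)⁻¹ = h (c * d)) (hCS : C ∈ S)
    (hcA : ⁅C, A⁆ = ⊥) (hcB : ⁅C, B⁆ = ⊥) : RootCommutatorCase S A B := by
  have hl : ∀ c, c ≠ 0 →
      Subgroup.closure ((fun b : G => f c * b * (f c)⁻¹ * b⁻¹) '' (B : Set G)) = C := by
    intro c hc
    refine le_antisymm ((Subgroup.closure_le _).2 ?_) fun x hx => ?_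
    · rintro _ ⟨b, hb, rfl⟩
      obtain ⟨d, rfl⟩ := (hB b).1 hb
      exact (hC _).2 ⟨_, hcom c d⟩
    · obtain ⟨e, rfl⟩ := (hC x).1 hx
      refine Subgroup.subset_closure ⟨g (e / c), (hB _).2 ⟨_, rfl⟩, (hcom _ _).trans ?_⟩
      rw [mul_div_cancel₀ e hc]
  have hr : ∀ d, d ≠ 0 →
      Subgroup.closure ((fun a : G => a * g d * a⁻¹ * (g d)⁻¹) '' (A : Set G)) = C := by
    intro d hd
    refine le_antisymm ((Subgroup.closure_le _).2 ?_) fun x hx => ?_
    · rintro _ ⟨a, ha, rfl⟩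
      obtain ⟨c, rfl⟩ := (hA a).1 ha
      exact (hC _).2 ⟨_, hcom c d⟩
    · obtain ⟨e, rfl⟩ := (hC x).1 hx
      refine Subgroup.subset_closure ⟨f (e / d), (hA _).2 ⟨_, rfl⟩, (hcom _ _).trans ?_⟩
      rw [div_mul_cancel₀ e hd]
  have h0 : ⁅A, B⁆ = C := by
    refine le_antisymm (Subgroup.commutator_le.2 fun a ha b hb => ?_) ?_
    · obtain ⟨c, rfl⟩ := (hA a).1 ha
      obtain ⟨d, rfl⟩ := (hB b).1 hb
      exact (hC _).2 ⟨_, hcom c d⟩
    · rw [← hl 1 one_ne_zero, Subgroup.closure_le]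
      rintro _ ⟨b, hb, rfl⟩
      exact Subgroup.commutator_mem_commutator ((hA _).2 ⟨1, rfl⟩) hb
  rw [RootCommutatorCase, h0]
  refine ⟨hCS, fun c hc x hx => ?_, fun a ha ha1 => ?_, fun b hb hb1 => ?_⟩
  · have hle : A ⊔ B ≤ Subgroup.centralizer (C : Set G) :=
      sup_le (Subgroup.commutator_eq_bot_iff_le_centralizer.1 ((Subgroup.commutator_comm A C).trans hcA))
        (Subgroup.commutator_eq_bot_iff_le_centralizer.1 ((Subgroup.commutator_comm B C).trans hcB))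
    exact Subgroup.mem_centralizer_iff.1 (hle hx) c hc
  · obtain ⟨c, rfl⟩ := (hA a).1 ha
    exact hl c fun e => ha1 (by rw [e, hf])
  · obtain ⟨d, rfl⟩ := (hB b).1 hb
    exact hr d fun e => hb1 (by rw [e, hg])

lemma case_subgroupOf (hS : ∀ X ∈ S, X ≤ K) (hA : A ≤ K) (hB : B ≤ K) (h : RootCommutatorCase S A B) :
    RootCommutatorCase ((fun X : Subgroup G => X.subgroupOf K) '' S) (A.subgroupOf K) (B.subgroupOf K) := by
  obtain ⟨hm, hc, hl, hr⟩ := h
  have hj : Function.Injective (Subgroup.map K.subtype) :=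
    Subgroup.map_injective (Subtype.val_injective (p := (· ∈ K)))
  have e : ⁅A.subgroupOf K, B.subgroupOf K⁆ = ⁅A, B⁆.subgroupOf K := hj (by
    rw [Subgroup.map_commutator, map_subgroupOf hA, map_subgroupOf hB, map_subgroupOf (hS _ hm)])
  rw [RootCommutatorCase, e]
  refine ⟨⟨_, hm, rfl⟩, fun c hcc x hx => Subtype.ext (hc c.1 hcc x.1 ?_), fun a ha ha1 => hj ?_,
    fun b hb hb1 => hj ?_⟩
  · have := Subgroup.mem_map_of_mem K.subtype hx
    rwa [Subgroup.map_sup, map_subgroupOf hA, map_subgroupOf hB] at this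
  · rw [MonoidHom.map_closure, map_subgroupOf (hS _ hm),
      ← hl a.1 ha (fun e => ha1 (Subtype.ext e)), Set.image_image]
    congr 1
    ext x
    exact ⟨fun ⟨b, hb, hx⟩ => ⟨b.1, hb, hx⟩, fun ⟨b, hb, hx⟩ => ⟨⟨b, hB hb⟩, hb, hx⟩⟩
  · rw [MonoidHom.map_closure, map_subgroupOf (hS _ hm),
      ← hr b.1 hb (fun e => hb1 (Subtype.ext e)), Set.image_image]
    congr 1
    ext x
    exact ⟨fun ⟨a, ha, hx⟩ => ⟨a.1, ha, hx⟩, fun ⟨a, ha, hx⟩ => ⟨⟨a, hA ha⟩, ha, hx⟩⟩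

/-- The three possible cases give a set of `k`-root subgroups of the generated group. -/
theorem kRoot_inside (hcomm : ∀ A ∈ S, IsMulCommutative A) (hne : ∀ A ∈ S, A ≠ ⊥)
    (hconj : ∀ A ∈ S, ∀ g : G, conjBy A g ∈ S)
    (hpair : ∀ A ∈ S, ∀ B ∈ S, ⁅A, B⁆ = ⊥ ∨ IsPSL2PairOver k A B ∨ RootCommutatorCase S A B) :
    IsKRootSubgroupSet k ((fun A : Subgroup G => A.subgroupOf (⨆ B ∈ S, B)) '' S) := by
  set K := ⨆ B ∈ S, B with hK
  have hle : ∀ A ∈ S, A ≤ K := fun A hA => le_iSup₂ (f := fun B (_ : B ∈ S) => B) A hA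
  set S' := (fun A : Subgroup G => A.subgroupOf K) '' S with hS'
  have hp : ∀ A ∈ S', ∀ B ∈ S', ⁅A, B⁆ = ⊥ ∨ IsPSL2PairOver k A B ∨ RootCommutatorCase S' A B := by
    rintro _ ⟨A, hA, rfl⟩ _ ⟨B, hB, rfl⟩
    exact (hpair A hA B hB).imp commutator_subgroupOf
      (Or.imp (psl2_subgroupOf (hle A hA) (hle B hB)) (case_subgroupOf hle (hle A hA) (hle B hB)))
  have hS : IsRootSubgroupSet S' := by
    refine ⟨?_, ?_, generates_subgroupOf S, ?_, fun A hA B hB =>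
      (hp A hA B hB).imp_right (Or.imp_left isRankOnePair_of_psl2)⟩
    · rintro _ ⟨A, hA, rfl⟩
      haveI := hcomm A hA
      exact ⟨⟨fun a b => Subtype.ext (Subtype.ext
        (congrArg Subtype.val (mul_comm' (⟨a.1.1, a.2⟩ : A) ⟨b.1.1, b.2⟩) :))⟩⟩
    · rintro _ ⟨A, hA, rfl⟩; exact subgroupOf_ne_bot (hle A hA) (hne A hA)
    · rintro _ ⟨A, hA, rfl⟩ g; exact ⟨_, hconj A hA g.1, (conjBy_subgroupOf (hle A hA) g).symm⟩
  refine ⟨hS, fun A hA B hB h => ?_⟩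
  rcases hp A hA B hB with h' | h' | h'
  · exact absurd h (not_rankOne_of_commute h')
  · exact h'
  · exact absurd h' (RootGroups.not_case hS hB h)

end CfsgLib.FillTv
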