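import Cfsg.Agent.FillTv.Basic

/-!
Families of subgroups viewed inside the subgroup they generate.
-/

set_option autoImplicit false

open Cfsg CfsgLib.RankOne

namespace CfsgLib.FillTv

variable {G : Type*} [Group G] {k : Type*} [Field k] {A B : Subgroup G} {K : Subgroup G}

lemma map_subgroupOf (hA : A ≤ K) : (A.subgroupOf K).map K.subtype = A := by
  rw [Subgroup.subgroupOf_map_subtype, inf_eq_left.2 hA]

lemma subgroupOf_ne_bot (hA : A ≤ K) (h : A ≠ ⊥) : A.subgroupOf K ≠ ⊥ := fun e => h (by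
  rw [← map_subgroupOf hA, e, Subgroup.map_bot])

lemma conjBy_subgroupOf (hA : A ≤ K) (g : K) :
    conjBy (A.subgroupOf K) g = (conjBy A g.1).subgroupOf K := by
  have hle : conjBy A g.1 ≤ K := by
    rintro _ ⟨a, ha, rfl⟩
    exact mul_mem (mul_mem g.2 (hA ha)) (inv_mem g.2)
  refine Subgroup.map_injective (Subtype.val_injective (p := (· ∈ K))) (f := K.subtype) ?_
  rw [map_conjBy, map_subgroupOf hA, map_subgroupOf hle]
  rfl

lemma generates_subgroupOf (S : Set (Subgroup G)) :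
    (⨆ X ∈ (fun A : Subgroup G => A.subgroupOf (⨆ B ∈ S, B)) '' S, X) = ⊤ := by
  refine Subgroup.map_injective (Subtype.val_injective (p := (· ∈ ⨆ B ∈ S, B)))
    (f := (⨆ B ∈ S, B).subtype) ?_
  rw [iSup_image, ← MonoidHom.range_eq_map, Subgroup.range_subtype, Subgroup.map_iSup]
  refine iSup_congr fun A => ?_
  rw [Subgroup.map_iSup]
  exact iSup_congr fun hA => map_subgroupOf (le_iSup₂ (f := fun B (_ : B ∈ S) => B) A hA)

lemma psl2_subgroupOf (hA : A ≤ K) (hB : B ≤ K) (h : IsPSL2PairOver k A B) :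
    IsPSL2PairOver k (A.subgroupOf K) (B.subgroupOf K) := by
  obtain ⟨φ, hr, hker, hU, hL⟩ := h
  have hmem : ∀ M, φ M ∈ K := fun M => sup_le hA hB (hr ▸ ⟨M, rfl⟩ : φ M ∈ A ⊔ B)
  have hj : Function.Injective (Subgroup.map K.subtype) :=
    Subgroup.map_injective (Subtype.val_injective (p := (· ∈ K)))
  have hU' : (upperUnipotentSL2 k).map (φ.codRestrict K hmem) = A.subgroupOf K := hj (by
    rw [Subgroup.map_map, show K.subtype.comp (φ.codRestrict K hmem) = φ from MonoidHom.ext fun _ => rfl, hU, map_subgroupOf hA])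
  have hL' : (lowerUnipotentSL2 k).map (φ.codRestrict K hmem) = B.subgroupOf K := hj (by
    rw [Subgroup.map_map, show K.subtype.comp (φ.codRestrict K hmem) = φ from MonoidHom.ext fun _ => rfl, hL, map_subgroupOf hB])
  refine ⟨φ.codRestrict K hmem, ?_, ?_, hU', hL'⟩
  · rw [← hU', ← hL', ← Subgroup.map_sup, sup_comm, Cfsg.Agent.H29.RankOneSL.sup_eq_top,
      ← MonoidHom.range_eq_map]
  · rw [MonoidHom.ker_codRestrict]
    exact hker

lemma commutator_subgroupOf (h : ⁅A, B⁆ = ⊥) : ⁅A.subgroupOf K, B.subgroupOf K⁆ = ⊥ :=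
  RootGroups.commutator_eq_bot_iff.2 fun a ha b hb =>
    Subtype.ext (RootGroups.commutator_eq_bot_iff.1 h a.1 ha b.1 hb)

/-- A conjugation closed family of pairwise commuting or `SL₂`-generating abelian subgroups, connected
through `SL₂`-pairs, is a class of `k`-root subgroups of the group it generates. -/
theorem class_inside {S : Set (Subgroup G)} (hcomm : ∀ A ∈ S, IsMulCommutative A)
    (hne : ∀ A ∈ S, A ≠ ⊥) (hconj : ∀ A ∈ S, ∀ g : G, conjBy A g ∈ S)
    (hpair : ∀ A ∈ S, ∀ B ∈ S, ⁅A, B⁆ = ⊥ ∨ IsPSL2PairOver k A B) (hS : S.Nonempty)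
    (hconn : ∀ A ∈ S, ∀ B ∈ S,
      Relation.ReflTransGen (fun X Y => X ∈ S ∧ Y ∈ S ∧ IsPSL2PairOver k X Y) A B) :
    IsRootSubgroupClass ((fun A : Subgroup G => A.subgroupOf (⨆ B ∈ S, B)) '' S) ∧
      IsDegenerateRootSet ((fun A : Subgroup G => A.subgroupOf (⨆ B ∈ S, B)) '' S) ∧
      IsKRootSubgroupSet k ((fun A : Subgroup G => A.subgroupOf (⨆ B ∈ S, B)) '' S) ∧
      IsConnectedFamily (FAdj ((fun A : Subgroup G => A.subgroupOf (⨆ B ∈ S, B)) '' S))
        ((fun A : Subgroup G => A.subgroupOf (⨆ B ∈ S, B)) '' S) := by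
  set K := ⨆ B ∈ S, B with hK
  have hle : ∀ A ∈ S, A ≤ K := fun A hA => le_iSup₂ (f := fun B (_ : B ∈ S) => B) A hA
  set S' := (fun A : Subgroup G => A.subgroupOf K) '' S with hS'
  have hk := kRoot_degenerate (k := k) (S := S')
    (by
      rintro _ ⟨A, hA, rfl⟩
      haveI := hcomm A hA
      exact ⟨⟨fun a b => Subtype.ext (Subtype.ext
        (congrArg Subtype.val (mul_comm' (⟨a.1.1, a.2⟩ : A) ⟨b.1.1, b.2⟩) :))⟩⟩)
    (by rintro _ ⟨A, hA, rfl⟩; exact subgroupOf_ne_bot (hle A hA) (hne A hA))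
    (generates_subgroupOf S)
    (by rintro _ ⟨A, hA, rfl⟩ g; exact ⟨_, hconj A hA g.1, (conjBy_subgroupOf (hle A hA) g).symm⟩)
    (by
      rintro _ ⟨A, hA, rfl⟩ _ ⟨B, hB, rfl⟩
      exact (hpair A hA B hB).imp commutator_subgroupOf (psl2_subgroupOf (hle A hA) (hle B hB)))
  have hc : IsConnectedFamily (FAdj S') S' := by
    rintro _ ⟨A, hA, rfl⟩ _ ⟨B, hB, rfl⟩
    refine (hconn A hA B hB).lift (fun A : Subgroup G => A.subgroupOf K) (fun X Y h => ?_)
    exact ⟨⟨X, h.1, rfl⟩, ⟨Y, h.2.1, rfl⟩,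
      isRankOnePair_of_psl2 (psl2_subgroupOf (hle X h.1) (hle Y h.2.1) h.2.2)⟩
  exact ⟨class_of_connected hk.1.1 (hS.image _) hc, hk.2, hk.1, hc⟩

end CfsgLib.FillTv
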