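import Cfsg.Agent.FillTv.Cases
import Cfsg.Agent.H10.RootTv
import Cfsg.Prelude.Def_Classical

/-!
Siegel transvection groups of singular lines for the hyperbolic quadratic form.
-/

set_option autoImplicit false

open Cfsg Matrix
open scoped commutatorElement

namespace CfsgLib.FillTv.Siegel

open Cfsg.Agent.H29.RankOneSL

variable {F : Type*} [Field F] {N : ℕ}

/-- The polar form of `quadFormPlus`. -/
def bq (u v : Fin N ⊕ Fin N → F) : F := ∑ i, (u (.inl i) * v (.inr i) + u (.inr i) * v (.inl i))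

lemma qf_add (u v : Fin N ⊕ Fin N → F) :
    quadFormPlus N F (u + v) = quadFormPlus N F u + quadFormPlus N F v + bq u v := by
  simp only [quadFormPlus, bq, Pi.add_apply, ← Finset.sum_add_distrib]
  exact Finset.sum_congr rfl fun i _ => by ring

lemma polar_eq (u v : Fin N ⊕ Fin N → F) :
    quadFormPlus N F (u + v) - quadFormPlus N F u - quadFormPlus N F v = bq u v := by
  rw [qf_add]; ring

lemma qf_smul (a : F) (u : Fin N ⊕ Fin N → F) : quadFormPlus N F (a • u) = a ^ 2 * quadFormPlus N F u := by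
  simp only [quadFormPlus, Pi.smul_apply, smul_eq_mul, Finset.mul_sum]
  exact Finset.sum_congr rfl fun i _ => by ring

lemma bq_comm (u v : Fin N ⊕ Fin N → F) : bq u v = bq v u :=
  Finset.sum_congr rfl fun i _ => by ring

lemma bq_self (u : Fin N ⊕ Fin N → F) : bq u u = 2 * quadFormPlus N F u := by
  simp only [bq, quadFormPlus, Finset.mul_sum]
  exact Finset.sum_congr rfl fun i _ => by ring

lemma bq_add_left (u u' v : Fin N ⊕ Fin N → F) : bq (u + u') v = bq u v + bq u' v := by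
  simp only [bq, Pi.add_apply, ← Finset.sum_add_distrib]
  exact Finset.sum_congr rfl fun i _ => by ring

lemma bq_smul_left (a : F) (u v : Fin N ⊕ Fin N → F) : bq (a • u) v = a * bq u v := by
  simp only [bq, Pi.smul_apply, smul_eq_mul, Finset.mul_sum]
  exact Finset.sum_congr rfl fun i _ => by ring

lemma bq_sub_left (u u' v : Fin N ⊕ Fin N → F) : bq (u - u') v = bq u v - bq u' v := by
  rw [sub_eq_add_neg, bq_add_left, ← neg_one_smul F u', bq_smul_left]; ring

lemma bq_add_right (u v v' : Fin N ⊕ Fin N → F) : bq u (v + v') = bq u v + bq u v' := by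
  rw [bq_comm, bq_add_left, bq_comm v, bq_comm v']

lemma bq_smul_right (a : F) (u v : Fin N ⊕ Fin N → F) : bq u (a • v) = a * bq u v := by
  rw [bq_comm, bq_smul_left, bq_comm]

lemma bq_sub_right (u v v' : Fin N ⊕ Fin N → F) : bq u (v - v') = bq u v - bq u v' := by
  rw [bq_comm, bq_sub_left, bq_comm v, bq_comm v']

lemma bq_zero_left (v : Fin N ⊕ Fin N → F) : bq 0 v = 0 := by simp [bq]

lemma qf_sub (u v : Fin N ⊕ Fin N → F) :
    quadFormPlus N F (u - v) = quadFormPlus N F u + quadFormPlus N F v - bq u v := by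
  rw [sub_eq_add_neg, qf_add, ← neg_one_smul F v, qf_smul, bq_smul_right]; ring

/-- The vector representing `bq · v`. -/
def sw (v : Fin N ⊕ Fin N → F) : Fin N ⊕ Fin N → F := fun i => v i.swap

lemma sw_dot (y x : Fin N ⊕ Fin N → F) : sw y ⬝ᵥ x = bq x y := by
  simp only [sw, bq, dotProduct, Fintype.sum_sum_type, Sum.swap_inl, Sum.swap_inr, ← Finset.sum_add_distrib]
  exact Finset.sum_congr rfl fun i _ => by ring

lemma exists_bq_ne {v : Fin N ⊕ Fin N → F} (hv : v ≠ 0) : ∃ y, bq y v ≠ 0 := by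
  obtain ⟨i, hi⟩ := Function.ne_iff.1 hv
  refine ⟨Pi.single i.swap 1, ?_⟩
  rw [← sw_dot]
  simpa [sw] using hi

lemma ext_bq {v w : Fin N ⊕ Fin N → F} (h : ∀ x, bq x v = bq x w) : v = w := by
  by_contra hne
  obtain ⟨y, hy⟩ := exists_bq_ne (sub_ne_zero.2 hne)
  exact hy (by rw [bq_sub_right, h, sub_self])

lemma exists_bq_pair {p r : Fin N ⊕ Fin N → F} (hp : p ≠ 0) (hr : ∀ c : F, r ≠ c • p) (a b : F) :
    ∃ y, bq y p = a ∧ bq y r = b := by
  obtain ⟨y, h1, h2⟩ := RootTv.exists_dot (u := sw p) (w := sw r)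
    (fun e => hp (funext fun i => by simpa [sw] using congrFun e i.swap))
    (fun c e => hr c (funext fun i => by simpa [sw] using congrFun e i.swap)) a b
  exact ⟨y, by rw [← sw_dot, h1], by rw [← sw_dot, h2]⟩

/-- A singular pair of vectors: they span a singular subspace. -/
structure SPair (p r : Fin N ⊕ Fin N → F) : Prop where
  qp : quadFormPlus N F p = 0
  qr : quadFormPlus N F r = 0
  pr : bq p r = 0

namespace SPair

variable {p r : Fin N ⊕ Fin N → F} (h : SPair p r)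
include h

lemma pp : bq p p = 0 := by rw [bq_self, h.qp, mul_zero]
lemma rr : bq r r = 0 := by rw [bq_self, h.qr, mul_zero]
lemma rp : bq r p = 0 := by rw [bq_comm, h.pr]

end SPair

/-- The matrix of `x ↦ x + c (bq x p • r - bq x r • p)`. -/
def smat (p r : Fin N ⊕ Fin N → F) (c : F) : Matrix (Fin N ⊕ Fin N) (Fin N ⊕ Fin N) F :=
  1 + c • (vecMulVec r (sw p) - vecMulVec p (sw r))

lemma smat_mulVec (p r : Fin N ⊕ Fin N → F) (c : F) (x : Fin N ⊕ Fin N → F) :
    smat p r c *ᵥ x = x + c • (bq x p • r - bq x r • p) := by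
  simp [smat, add_mulVec, sub_mulVec, smul_mulVec, vecMulVec_mulVec, sw_dot]

lemma smat_mul {p r : Fin N ⊕ Fin N → F} (h : SPair p r) (c d : F) :
    smat p r c * smat p r d = smat p r (c + d) :=
  Matrix.ext_iff_mulVec.2 fun x => by
    rw [← mulVec_mulVec]
    simp only [smat_mulVec, bq_add_left, bq_smul_left, bq_sub_left, h.pp, h.rr, h.pr, h.rp]
    module

lemma smat_zero (p r : Fin N ⊕ Fin N → F) : smat p r 0 = 1 := by simp [smat]

/-- The Siegel transvection as an isometry. -/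
noncomputable def sie {p r : Fin N ⊕ Fin N → F} (h : SPair p r) (c : F) :
    isometryGroup F (quadFormPlus N F) :=
  ⟨⟨smat p r c, smat p r (-c), by rw [smat_mul h, add_neg_cancel, smat_zero],
      by rw [smat_mul h, neg_add_cancel, smat_zero]⟩, fun x _ => by
    change quadFormPlus N F (smat p r c *ᵥ x) = quadFormPlus N F x
    simp only [smat_mulVec, qf_add, qf_smul, qf_sub, bq_smul_right, bq_sub_right, bq_smul_left,
      h.qp, h.qr, h.rp]
    ring⟩

variable {p r p' r' : Fin N ⊕ Fin N → F}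

/-- The matrix of an isometry. -/
abbrev mt (g : isometryGroup F (quadFormPlus N F)) : Matrix (Fin N ⊕ Fin N) (Fin N ⊕ Fin N) F :=
  ((g : Matrix.GeneralLinearGroup (Fin N ⊕ Fin N) F) : Matrix (Fin N ⊕ Fin N) (Fin N ⊕ Fin N) F)

lemma mt_sie (h : SPair p r) (c : F) : mt (sie h c) = smat p r c := rfl

lemma mt_mul (g k : isometryGroup F (quadFormPlus N F)) : mt (g * k) = mt g * mt k := rfl

lemma mt_one : mt (1 : isometryGroup F (quadFormPlus N F)) = 1 := rfl

lemma iso_ext {g k : isometryGroup F (quadFormPlus N F)} (h : ∀ x, mt g *ᵥ x = mt k *ᵥ x) : g = k :=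
  Subtype.ext (Units.ext (Matrix.ext_iff_mulVec.2 h))

lemma iso_qf (g : isometryGroup F (quadFormPlus N F)) (x : Fin N ⊕ Fin N → F) :
    quadFormPlus N F (mt g *ᵥ x) = quadFormPlus N F x := g.2 x x

lemma iso_bq (g : isometryGroup F (quadFormPlus N F)) (x y : Fin N ⊕ Fin N → F) :
    bq (mt g *ᵥ x) (mt g *ᵥ y) = bq x y := by
  rw [← polar_eq, ← polar_eq, ← Matrix.mulVec_add, iso_qf, iso_qf, iso_qf]

lemma inv_mulVec (g : isometryGroup F (quadFormPlus N F)) (x : Fin N ⊕ Fin N → F) :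
    mt g *ᵥ (mt g⁻¹ *ᵥ x) = x := by
  rw [mulVec_mulVec, ← mt_mul, mul_inv_cancel, mt_one, one_mulVec]

lemma inv_mulVec' (g : isometryGroup F (quadFormPlus N F)) (x : Fin N ⊕ Fin N → F) :
    mt g⁻¹ *ᵥ (mt g *ᵥ x) = x := by
  rw [mulVec_mulVec, ← mt_mul, inv_mul_cancel, mt_one, one_mulVec]

lemma sie_mul (h : SPair p r) (c d : F) : sie h c * sie h d = sie h (c + d) :=
  Subtype.ext (Units.ext (smat_mul h c d))

lemma sie_zero (h : SPair p r) : sie h 0 = 1 := Subtype.ext (Units.ext (smat_zero p r))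

lemma sie_inv (h : SPair p r) (c : F) : (sie h c)⁻¹ = sie h (-c) :=
  inv_eq_of_mul_eq_one_right (by rw [sie_mul, add_neg_cancel, sie_zero])

/-- `c ↦ sie h c` as a homomorphism. -/
noncomputable def sieHom (h : SPair p r) : Multiplicative F →* isometryGroup F (quadFormPlus N F) where
  toFun c := sie h c.toAdd
  map_one' := sie_zero h
  map_mul' _ _ := (sie_mul h _ _).symm

/-- The Siegel transvection group. -/
noncomputable def T (h : SPair p r) : Subgroup (isometryGroup F (quadFormPlus N F)) := (sieHom h).range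

lemma mem_T {h : SPair p r} {g : isometryGroup F (quadFormPlus N F)} : g ∈ T h ↔ ∃ c, g = sie h c :=
  ⟨fun ⟨c, hc⟩ => ⟨c.toAdd, hc.symm⟩, fun ⟨c, hc⟩ => ⟨Multiplicative.ofAdd c, hc.symm⟩⟩

lemma T_comm (h : SPair p r) : IsMulCommutative (T h) := ⟨⟨fun a b => by
  obtain ⟨c, hc⟩ := mem_T.1 a.2
  obtain ⟨d, hd⟩ := mem_T.1 b.2
  ext1
  rw [Subgroup.coe_mul, Subgroup.coe_mul, hc, hd, sie_mul, sie_mul, add_comm]⟩⟩

lemma T_ne_bot (h : SPair p r) (hp : p ≠ 0) (hr : ∀ c : F, r ≠ c • p) : T h ≠ ⊥ := fun e => by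
  obtain ⟨y, hy1, hy2⟩ := exists_bq_pair hp hr 1 0
  have h1 := Subgroup.mem_bot.1 (e ▸ mem_T.2 ⟨1, rfl⟩ : sie h 1 ∈ (⊥ : Subgroup _))
  have h2 := smat_mulVec p r 1 y
  rw [← mt_sie h 1, h1, mt_one, one_mulVec, hy1, hy2, one_smul, one_smul, zero_smul, sub_zero, left_eq_add] at h2
  exact hr 0 (by rw [h2, zero_smul])

/-- The group in the statement is the group of Siegel transvections. -/
theorem closure_eq_T (h : SPair p r) (hp : p ≠ 0) (hr : ∀ c : F, r ≠ c • p) :
    Subgroup.closure {σ : ↥(isometryGroup F (quadFormPlus N F)) | ∀ v : Fin N ⊕ Fin N → F,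
      quadFormPlus N F (v + p) - quadFormPlus N F v - quadFormPlus N F p = 0 →
      quadFormPlus N F (v + r) - quadFormPlus N F v - quadFormPlus N F r = 0 →
        ((σ : Matrix.GeneralLinearGroup (Fin N ⊕ Fin N) F) : Matrix (Fin N ⊕ Fin N) (Fin N ⊕ Fin N) F) *ᵥ v = v} =
      T h := by
  refine le_antisymm ((Subgroup.closure_le _).2 ?_) fun g hg => Subgroup.subset_closure ?_
  · intro g hg
    have hfix : ∀ x, bq x p = 0 → bq x r = 0 → mt g *ᵥ x = x := fun x h1 h2 =>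
      hg x (by rw [polar_eq, h1]) (by rw [polar_eq, h2])
    obtain ⟨y₁, h11, h12⟩ := exists_bq_pair hp hr 1 0
    obtain ⟨y₂, h21, h22⟩ := exists_bq_pair hp hr 0 1
    set d₁ := mt g *ᵥ y₁ - y₁ with hd₁
    set d₂ := mt g *ᵥ y₂ - y₂ with hd₂
    have hdec : ∀ x, bq (x - bq x p • y₁ - bq x r • y₂) p = 0 ∧ bq (x - bq x p • y₁ - bq x r • y₂) r = 0 :=
      fun x => by constructor <;> simp [bq_sub_left, bq_smul_left, h11, h12, h21, h22]
    have hperp : ∀ y x, bq x p = 0 → bq x r = 0 → bq x (mt g *ᵥ y - y) = 0 := fun y x h1 h2 => by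
      have := iso_bq g x y
      rw [hfix x h1 h2] at this
      rw [bq_sub_right, this, sub_self]
    have hspan : ∀ y, mt g *ᵥ y - y = bq y₁ (mt g *ᵥ y - y) • p + bq y₂ (mt g *ᵥ y - y) • r := fun y => by
      refine ext_bq fun x => ?_
      have := hperp y _ (hdec x).1 (hdec x).2
      generalize mt g *ᵥ y - y = d at this ⊢
      simp only [bq_sub_left, bq_smul_left] at this
      rw [bq_add_right, bq_smul_right, bq_smul_right]
      linear_combination this
    have key : ∀ x, mt g *ᵥ x = x + bq x p • d₁ + bq x r • d₂ := fun x => by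
      have := hfix _ (hdec x).1 (hdec x).2
      rw [Matrix.mulVec_sub, Matrix.mulVec_sub, Matrix.mulVec_smul, Matrix.mulVec_smul] at this
      rw [hd₁, hd₂]
      linear_combination (norm := module) this
    set α₁ := bq y₁ d₁
    set β₁ := bq y₂ d₁
    set α₂ := bq y₁ d₂
    set β₂ := bq y₂ d₂
    have e1 : d₁ = α₁ • p + β₁ • r := hspan y₁
    have e2 : d₂ = α₂ • p + β₂ • r := hspan y₂
    have g1 : mt g *ᵥ y₁ = y₁ + d₁ := by rw [hd₁]; abel
    have g2 : mt g *ᵥ y₂ = y₂ + d₂ := by rw [hd₂]; abel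
    have a1 : α₁ = 0 := by
      have := iso_qf g y₁
      rw [g1, e1, qf_add, qf_add, qf_smul, qf_smul, h.qp, h.qr, bq_smul_left, bq_smul_right, h.pr, bq_add_right,
        bq_smul_right, bq_smul_right, h11, h12] at this
      linear_combination this
    have a2 : β₂ = 0 := by
      have := iso_qf g y₂
      rw [g2, e2, qf_add, qf_add, qf_smul, qf_smul, h.qp, h.qr, bq_smul_left, bq_smul_right, h.pr, bq_add_right,
        bq_smul_right, bq_smul_right, h21, h22] at this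
      linear_combination this
    have a3 : β₁ + α₂ = 0 := by
      have := iso_bq g y₁ y₂
      rw [g1, g2, e1, e2] at this
      simp only [bq_add_left, bq_add_right, bq_smul_left, bq_smul_right, bq_comm p y₂, bq_comm r y₂,
        h11, h12, h21, h22, h.pp, h.rr, h.pr, h.rp] at this
      linear_combination this
    refine mem_T.2 ⟨β₁, iso_ext fun x => ?_⟩
    rw [mt_sie, smat_mulVec, key, e1, e2, a1, a2, eq_neg_of_add_eq_zero_right a3]
    module
  · obtain ⟨c, rfl⟩ := mem_T.1 hg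
    intro v h1 h2
    rw [polar_eq] at h1 h2
    show smat p r c *ᵥ v = v
    rw [smat_mulVec, h1, h2]
    simp

lemma SPair.map (h : SPair p r) (g : isometryGroup F (quadFormPlus N F)) :
    SPair (mt g *ᵥ p) (mt g *ᵥ r) :=
  ⟨(iso_qf g p).trans h.qp, (iso_qf g r).trans h.qr, (iso_bq g p r).trans h.pr⟩

lemma sie_conj (h : SPair p r) (g : isometryGroup F (quadFormPlus N F)) (c : F) :
    g * sie h c * g⁻¹ = sie (h.map g) c := by
  refine iso_ext fun x => ?_
  rw [mt_mul, mt_mul, ← mulVec_mulVec, ← mulVec_mulVec, mt_sie, mt_sie, smat_mulVec, smat_mulVec,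
    Matrix.mulVec_add, Matrix.mulVec_smul, Matrix.mulVec_sub, Matrix.mulVec_smul, Matrix.mulVec_smul,
    inv_mulVec, ← iso_bq g (mt g⁻¹ *ᵥ x) p, ← iso_bq g (mt g⁻¹ *ᵥ x) r, inv_mulVec]

lemma T_conj (h : SPair p r) (g : isometryGroup F (quadFormPlus N F)) :
    conjBy (T h) g = T (h.map g) := by
  ext x
  rw [Subgroup.mem_map]
  simp only [mem_T]
  constructor
  · rintro ⟨_, ⟨c, rfl⟩, rfl⟩
    exact ⟨c, sie_conj h g c⟩
  · rintro ⟨c, rfl⟩
    exact ⟨_, ⟨c, rfl⟩, sie_conj h g c⟩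

/-- The group depends only on the line. -/
lemma T_basis (h : SPair p r) (h' : SPair p' r') {a b c d : F} (hp : p' = a • p + b • r)
    (hr : r' = c • p + d • r) (hdet : a * d - b * c ≠ 0) : T h' = T h := by
  have e : ∀ t, sie h' t = sie h (t * (a * d - b * c)) := fun t => iso_ext fun x => by
    rw [mt_sie, mt_sie, smat_mulVec, smat_mulVec, hp, hr]
    simp only [bq_add_right, bq_smul_right]
    module
  ext g
  simp only [mem_T, e]
  exact ⟨fun ⟨t, ht⟩ => ⟨_, ht⟩, fun ⟨t, ht⟩ => ⟨t / (a * d - b * c), by rw [ht, div_mul_cancel₀ t hdet]⟩⟩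

/-! ### Pairs -/

variable {q₁ q₂ : Fin N ⊕ Fin N → F}

lemma T_commute (h : SPair p r) (h' : SPair q₁ q₂) (e11 : bq p q₁ = 0) (e12 : bq p q₂ = 0)
    (e21 : bq r q₁ = 0) (e22 : bq r q₂ = 0) : ⁅T h, T h'⁆ = ⊥ := by
  rw [RootGroups.commutator_eq_bot_iff]
  intro a ha b hb
  obtain ⟨c, rfl⟩ := mem_T.1 ha
  obtain ⟨d, rfl⟩ := mem_T.1 hb
  refine iso_ext fun x => ?_
  simp only [mt_mul, mt_sie, ← mulVec_mulVec, smat_mulVec, bq_add_left, bq_smul_left, bq_sub_left,
    bq_comm q₁ p, bq_comm q₁ r, bq_comm q₂ p, bq_comm q₂ r, e11, e12, e21, e22]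
  module

/-- Two lines with non-degenerate pairing generate an image of `SL₂`. -/
theorem psl2_dual (h : SPair p r) (h' : SPair q₁ q₂) (e11 : bq p q₁ = 1) (e12 : bq p q₂ = 0)
    (e21 : bq r q₁ = 0) (e22 : bq r q₂ = 1) : IsPSL2PairOver F (T h) (T h') := by
  have hfv : sw p ⬝ᵥ r = 0 := by rw [sw_dot, h.rp]
  have hfw : sw p ⬝ᵥ q₁ = 1 := by rw [sw_dot, bq_comm, e11]
  have hgv : sw q₂ ⬝ᵥ r = 1 := by rw [sw_dot, e22]
  have hgw : sw q₂ ⬝ᵥ q₁ = 0 := by rw [sw_dot, h'.pr]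
  have kfv : sw r ⬝ᵥ (-p) = 0 := by rw [dotProduct_neg, sw_dot, h.pr, neg_zero]
  have kfw : sw r ⬝ᵥ q₂ = 1 := by rw [sw_dot, bq_comm, e22]
  have kgv : (-sw q₁) ⬝ᵥ (-p) = 1 := by rw [neg_dotProduct_neg, sw_dot, e11]
  have kgw : (-sw q₁) ⬝ᵥ q₂ = 0 := by rw [neg_dotProduct, sw_dot, h'.rp, neg_zero]
  set Φ₁ := RootTv.pGL hfv hfw hgv hgw with hΦ₁
  set Φ₂ := RootTv.pGL kfv kfw kgv kgw with hΦ₂
  have hcomm : ∀ M M', Φ₂ M' * Φ₁ M = Φ₁ M * Φ₂ M' := fun M M' => by
    refine Matrix.ext_iff_mulVec.2 fun x => ?_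
    simp only [hΦ₁, hΦ₂, RootTv.pGL, MonoidHom.coe_mk, OneHom.coe_mk, RootTv.pmat, ← mulVec_mulVec, add_mulVec,
      one_mulVec, smul_mulVec, vecMulVec_mulVec, op_smul_eq_smul, mulVec_add, mulVec_smul, mulVec_neg,
      dotProduct_add, dotProduct_smul, dotProduct_neg, neg_dotProduct, sw_dot, bq_comm q₁ p, bq_comm q₁ r,
      bq_comm q₂ p, bq_comm q₂ r, e11, e12, e21, e22, h.pp, h.rr, h.pr, h.rp, h'.pp, h'.rr, h'.pr, h'.rp,
      smul_eq_mul]
    module
  let Φ : Matrix.SpecialLinearGroup (Fin 2) F →* Matrix (Fin N ⊕ Fin N) (Fin N ⊕ Fin N) F :=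
    { toFun := fun M => Φ₁ M * Φ₂ M
      map_one' := by rw [map_one, map_one, mul_one]
      map_mul' := fun a b => by
        rw [map_mul, map_mul, mul_assoc (Φ₁ a), ← mul_assoc (Φ₁ b), ← hcomm b a]
        simp only [mul_assoc] }
  have hΦu : ∀ t : F, Φ (up t) = smat p r t := fun t => Matrix.ext_iff_mulVec.2 fun x => by
    show (Φ₁ (up t) * Φ₂ (up t)) *ᵥ x = _
    rw [← mulVec_mulVec, smat_mulVec]
    simp [hΦ₁, hΦ₂, RootTv.pGL, RootTv.pmat, up_val, add_mulVec, sub_mulVec, smul_mulVec, neg_mulVec, vecMulVec_mulVec,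
      sw_dot, mulVec_add, mulVec_sub, mulVec_smul, -mulVec_mulVec, bq_add_left, bq_smul_left, bq_sub_left,
      ← sub_eq_add_neg, h.pp, h.pr]
    module
  have hΦl : ∀ t : F, Φ (lo t) = smat q₁ q₂ (-t) := fun t => Matrix.ext_iff_mulVec.2 fun x => by
    show (Φ₁ (lo t) * Φ₂ (lo t)) *ᵥ x = _
    rw [← mulVec_mulVec, smat_mulVec]
    simp [hΦ₁, hΦ₂, RootTv.pGL, RootTv.pmat, lo_val, add_mulVec, sub_mulVec, smul_mulVec, neg_mulVec, vecMulVec_mulVec,
      sw_dot, mulVec_add, mulVec_sub, mulVec_smul, -mulVec_mulVec, ← sub_eq_add_neg, h'.rp,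
      bq_add_left, bq_smul_left, bq_sub_left, h'.rr]
    module
  set ψ := Φ.toHomUnits
  have hmem : ∀ M, ψ M ∈ isometryGroup F (quadFormPlus N F) := by
    intro M
    have hM : M ∈ lowerUnipotentSL2 F ⊔ upperUnipotentSL2 F := by rw [sup_eq_top]; trivial
    rw [Subgroup.sup_eq_closure] at hM
    refine Subgroup.closure_induction (p := fun M _ => ψ M ∈ isometryGroup F (quadFormPlus N F))
      ?_ (by rw [map_one]; exact one_mem _) (fun a b _ _ ha hb => by rw [map_mul]; exact mul_mem ha hb)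
      (fun a _ ha => by rw [map_inv]; exact inv_mem ha) hM
    rintro x (hx | hx)
    · obtain ⟨t, rfl⟩ := mem_lower.1 hx
      rw [show ψ (lo t) = (sie h' (-t)).1 from Units.ext (hΦl t)]
      exact (sie h' (-t)).2
    · obtain ⟨t, rfl⟩ := mem_upper.1 hx
      rw [show ψ (up t) = (sie h t).1 from Units.ext (hΦu t)]
      exact (sie h t).2
  let φ : Matrix.SpecialLinearGroup (Fin 2) F →* isometryGroup F (quadFormPlus N F) := ψ.codRestrict _ hmem
  have hinj : Function.Injective φ := by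
    refine (injective_iff_map_eq_one φ).2 fun M hM => ?_
    have h1 : Φ₁ M * Φ₂ M = 1 := congrArg mt hM
    have key : ∀ l x, l ⬝ᵥ ((Φ₁ M * Φ₂ M) *ᵥ x) = l ⬝ᵥ x := fun l x => by rw [h1, one_mulVec]
    have e00 := key (sw q₂) r
    have e01 := key (sw q₂) q₁
    have e10 := key (sw p) r
    have e11' := key (sw p) q₁
    simp [hΦ₁, hΦ₂, RootTv.pGL, RootTv.pmat, ← mulVec_mulVec, mulVec_sub, add_mulVec, smul_mulVec, neg_mulVec, vecMulVec_mulVec, sw_dot,
      ← sub_eq_add_neg, bq_sub_left, sub_mulVec,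
      bq_add_left, bq_smul_left, mulVec_add, mulVec_smul, mulVec_neg, bq_comm q₁ p, bq_comm q₁ r, bq_comm q₂ p,
      bq_comm q₂ r, e11, e12, e21, e22, h.pp, h.rr, h.pr, h.rp, h'.pp, h'.rr, h'.pr, h'.rp] at e00 e01 e10 e11'
    exact ext2 (by simpa using e00) (by simpa using e01) (by simpa using e10) (by simpa using e11')
  have hU : (upperUnipotentSL2 F).map φ = T h := by
    ext g
    rw [Subgroup.mem_map, mem_T]
    constructor
    · rintro ⟨x, hx, rfl⟩
      obtain ⟨t, rfl⟩ := mem_upper.1 hx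
      exact ⟨t, Subtype.ext (Units.ext (hΦu t))⟩
    · rintro ⟨t, rfl⟩
      exact ⟨_, mem_upper.2 ⟨t, rfl⟩, Subtype.ext (Units.ext (hΦu t))⟩
  have hL : (lowerUnipotentSL2 F).map φ = T h' := by
    ext g
    rw [Subgroup.mem_map, mem_T]
    constructor
    · rintro ⟨x, hx, rfl⟩
      obtain ⟨t, rfl⟩ := mem_lower.1 hx
      exact ⟨-t, Subtype.ext (Units.ext (hΦl t))⟩
    · rintro ⟨t, rfl⟩
      exact ⟨_, mem_lower.2 ⟨-t, rfl⟩, Subtype.ext (Units.ext ((hΦl (-t)).trans (by rw [neg_neg]; rfl)))⟩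
  refine ⟨φ, ?_, by rw [(MonoidHom.ker_eq_bot_iff φ).2 hinj]; exact bot_le, hU, hL⟩
  rw [← hU, ← hL, ← Subgroup.map_sup, sup_comm, sup_eq_top, ← MonoidHom.range_eq_map]

theorem psl2_of_det (h : SPair p r) (h' : SPair q₁ q₂)
    (hD : bq p q₁ * bq r q₂ - bq p q₂ * bq r q₁ ≠ 0) : IsPSL2PairOver F (T h) (T h') := by
  set D := bq p q₁ * bq r q₂ - bq p q₂ * bq r q₁ with hD'
  set u₁ := D⁻¹ • (bq r q₂ • q₁ - bq r q₁ • q₂) with hu₁
  set u₂ := D⁻¹ • (bq p q₁ • q₂ - bq p q₂ • q₁) with hu₂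
  have hs : SPair u₁ u₂ := by
    refine ⟨?_, ?_, ?_⟩ <;>
    simp only [hu₁, hu₂, qf_smul, qf_sub, bq_smul_left, bq_smul_right, bq_sub_left, bq_sub_right,
      h'.qp, h'.qr, h'.pr, h'.rp, h'.pp, h'.rr] <;> ring
  have e : T hs = T h' := by
    refine T_basis h' hs (a := D⁻¹ * bq r q₂) (b := -(D⁻¹ * bq r q₁)) (c := -(D⁻¹ * bq p q₂))
      (d := D⁻¹ * bq p q₁) (by rw [hu₁]; module) (by rw [hu₂]; module) ?_
    rw [show D⁻¹ * bq r q₂ * (D⁻¹ * bq p q₁) - -(D⁻¹ * bq r q₁) * -(D⁻¹ * bq p q₂) = D⁻¹ * (D⁻¹ * D) by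
      rw [hD']; ring, inv_mul_cancel₀ hD, mul_one]
    exact inv_ne_zero hD
  rw [← e]
  refine psl2_dual h hs ?_ ?_ ?_ ?_ <;>
    simp only [hu₁, hu₂, bq_smul_right, bq_sub_right]
  · rw [show bq r q₂ * bq p q₁ - bq r q₁ * bq p q₂ = D by rw [hD']; ring, inv_mul_cancel₀ hD]
  · ring
  · ring
  · rw [show bq p q₁ * bq r q₂ - bq p q₂ * bq r q₁ = D from rfl, inv_mul_cancel₀ hD]

variable {S : Set (Subgroup (isometryGroup F (quadFormPlus N F)))}

/-- The normal form of the commutator case. -/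
theorem case_normal (hS : ∀ {a b : Fin N ⊕ Fin N → F} (h : SPair a b), a ≠ 0 → (∀ c : F, b ≠ c • a) → T h ∈ S)
    {a b x y : Fin N ⊕ Fin N → F} (h : SPair a x) (h' : SPair b y) (eab : bq a b = 0) (eay : bq a y = 0)
    (exb : bq x b = 0) (exy : bq x y = 1) :
    ⁅T h, T h'⁆ = ⊥ ∨ RootCommutatorCase S (T h) (T h') := by
  have hc : SPair a b := ⟨h.qp, h'.qp, eab⟩
  have hcom : ∀ c d, sie h c * sie h' d * (sie h c)⁻¹ * (sie h' d)⁻¹ = sie hc (c * d) := fun c d => by
    rw [mul_inv_eq_iff_eq_mul, mul_inv_eq_iff_eq_mul]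
    refine iso_ext fun z => ?_
    simp only [mt_mul, mt_sie, ← mulVec_mulVec, smat_mulVec, bq_add_left, bq_smul_left, bq_sub_left,
      bq_comm b a, bq_comm y a, bq_comm b x, bq_comm y x, eab, eay, exb, exy,
      h.pp, h.rr, h.pr, h.rp, h'.pp, h'.rr, h'.pr, h'.rp]
    module
  by_cases hdeg : a = 0 ∨ ∃ c : F, b = c • a
  · refine Or.inl (RootGroups.commutator_eq_bot_iff.2 fun u hu v hv => ?_)
    obtain ⟨c, rfl⟩ := mem_T.1 hu
    obtain ⟨d, rfl⟩ := mem_T.1 hv
    have h1 : sie hc (c * d) = 1 := iso_ext fun z => by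
      rw [mt_sie, smat_mulVec, mt_one, one_mulVec]
      rcases hdeg with e | ⟨e, he⟩
      · subst e; simp [bq_comm z 0, bq_zero_left]
      · subst he; rw [bq_smul_right]; module
    have h2 := hcom c d
    rwa [h1, mul_inv_eq_one, mul_inv_eq_iff_eq_mul] at h2
  · push Not at hdeg
    refine Or.inr (case_of_param (f := sie h) (g := sie h') (h := sie hc) (fun _ => mem_T) (fun _ => mem_T)
      (fun _ => mem_T) (sie_zero h) (sie_zero h') hcom (hS hc hdeg.1 hdeg.2) ?_ ?_)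
    · exact T_commute hc h h.pp h.pr (by rw [bq_comm, eab]) (by rw [bq_comm, exb])
    · exact T_commute hc h' eab eay h'.pp h'.pr

theorem T_pair (hS : ∀ {a b : Fin N ⊕ Fin N → F} (h : SPair a b), a ≠ 0 → (∀ c : F, b ≠ c • a) → T h ∈ S)
    (h : SPair p r) (h' : SPair q₁ q₂) :
    ⁅T h, T h'⁆ = ⊥ ∨ IsPSL2PairOver F (T h) (T h') ∨ RootCommutatorCase S (T h) (T h') := by
  by_cases hD : bq p q₁ * bq r q₂ - bq p q₂ * bq r q₁ = 0
  swap
  · exact Or.inr (Or.inl (psl2_of_det h h' hD))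
  by_cases h0 : bq p q₁ = 0 ∧ bq p q₂ = 0 ∧ bq r q₁ = 0 ∧ bq r q₂ = 0
  · exact Or.inl (T_commute h h' h0.1 h0.2.1 h0.2.2.1 h0.2.2.2)
  -- some entry `bq u v` is non-zero; move it to the last position
  have main : ∀ {u₁ u₂ v₁ v₂ : Fin N ⊕ Fin N → F} (hu : SPair u₁ u₂) (hv : SPair v₁ v₂),
      bq u₂ v₂ ≠ 0 → bq u₁ v₁ * bq u₂ v₂ - bq u₁ v₂ * bq u₂ v₁ = 0 →
      ⁅T hu, T hv⁆ = ⊥ ∨ RootCommutatorCase S (T hu) (T hv) := by
    intro u₁ u₂ v₁ v₂ hu hv hne hd
    set s := bq u₂ v₂ with hs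
    set a := s • u₁ - bq u₁ v₂ • u₂ with ha
    set b := s • v₁ - bq u₂ v₁ • v₂ with hb
    set y := s⁻¹ • v₂ with hy
    have ha' : SPair a u₂ := by
      refine ⟨?_, hu.qr, ?_⟩ <;>
      simp only [ha, qf_sub, qf_smul, bq_sub_left, bq_smul_left, bq_smul_right, hu.qp, hu.qr, hu.pr, hu.rr] <;> ring
    have hb' : SPair b y := by
      refine ⟨?_, ?_, ?_⟩ <;>
      simp only [hb, hy, qf_sub, qf_smul, bq_sub_left, bq_smul_left, bq_smul_right, hv.qp, hv.qr, hv.pr, hv.rr] <;> ring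
    have eA : T ha' = T hu := T_basis hu ha' (a := s) (b := -bq u₁ v₂) (c := 0) (d := 1)
      (by rw [ha]; module) (by module) (by simpa using hne)
    have eB : T hb' = T hv := T_basis hv hb' (a := s) (b := -bq u₂ v₁) (c := 0) (d := s⁻¹)
      (by rw [hb]; module) (by rw [hy]; module) (by simp [mul_inv_cancel₀ hne])
    rw [← eA, ← eB]
    refine case_normal hS ha' hb' ?_ ?_ ?_ ?_
    · simp only [ha, hb, bq_sub_left, bq_sub_right, bq_smul_left, bq_smul_right, ← hs]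
      linear_combination s * hd
    · simp only [ha, hy, bq_sub_left, bq_smul_left, bq_smul_right, ← hs]; ring
    · simp only [hb, bq_sub_right, bq_smul_right, ← hs]; ring
    · simp only [hy, bq_smul_right, ← hs, inv_mul_cancel₀ hne]
  have hsw : ∀ {u v : Fin N ⊕ Fin N → F} (hh : SPair u v), ∃ hh' : SPair v u, T hh' = T hh := fun {u v} hh =>
    ⟨⟨hh.qr, hh.qp, hh.rp⟩, T_basis hh _ (a := 0) (b := 1) (c := 1) (d := 0) (by module) (by module) (by simp)⟩
  suffices ⁅T h, T h'⁆ = ⊥ ∨ RootCommutatorCase S (T h) (T h') from this.imp_right Or.inr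
  obtain ⟨k, ek⟩ := hsw h
  obtain ⟨k', ek'⟩ := hsw h'
  by_cases h22 : bq r q₂ = 0
  · by_cases h12 : bq p q₂ = 0
    · by_cases h21 : bq r q₁ = 0
      · have h11 : bq p q₁ ≠ 0 := fun e => h0 ⟨e, h12, h21, h22⟩
        rw [← ek, ← ek']
        exact main k k' h11 (by linear_combination hD)
      · rw [← ek']
        exact main h k' h21 (by linear_combination -hD)
    · rw [← ek]
      exact main k h' h12 (by linear_combination -hD)
  · exact main h h' h22 hD

/-! ### Connectivity -/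

/-- A common singular non-neighbour of two singular vectors orthogonal to a hyperbolic plane. -/
theorem exists_common_plane (hN : 3 ≤ N) {a u p r : Fin N ⊕ Fin N → F} (ha : quadFormPlus N F a = 0)
    (hu : quadFormPlus N F u = 0) (hua : bq u a = 1) (hp : quadFormPlus N F p = 0) (hr : quadFormPlus N F r = 0)
    (hp0 : p ≠ 0) (hr0 : r ≠ 0) (hpa : bq p a = 0) (hpu : bq p u = 0) (hra : bq r a = 0) (hru : bq r u = 0) :
    ∃ w, quadFormPlus N F w = 0 ∧ bq w a = 0 ∧ bq w u = 0 ∧ bq w p ≠ 0 ∧ bq w r ≠ 0 := by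
  have haa : bq a a = 0 := by rw [bq_self, ha, mul_zero]
  have huu : bq u u = 0 := by rw [bq_self, hu, mul_zero]
  have hpp : bq p p = 0 := by rw [bq_self, hp, mul_zero]
  have hau : bq a u = 1 := by rw [bq_comm, hua]
  have proj : ∀ y, bq y p = 1 → ∃ w, quadFormPlus N F w = 0 ∧ bq w a = 0 ∧ bq w u = 0 ∧ bq w p = 1 ∧
      (bq p r = 0 → bq w r = bq y r) := fun y hy => by
    set z := y - bq y u • a - bq y a • u with hz
    have h1 : bq z a = 0 := by simp [hz, bq_sub_left, bq_smul_left, haa, hua]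
    have h2 : bq z u = 0 := by simp [hz, bq_sub_left, bq_smul_left, hau, huu]
    have h3 : bq z p = 1 := by simp [hz, bq_sub_left, bq_smul_left, bq_comm a p, bq_comm u p, hpa, hpu, hy]
    refine ⟨z - quadFormPlus N F z • p, ?_, ?_, ?_, ?_, fun h => ?_⟩
    · rw [qf_sub, qf_smul, hp, bq_smul_right, h3]; ring
    · rw [bq_sub_left, bq_smul_left, h1, hpa]; ring
    · rw [bq_sub_left, bq_smul_left, h2, hpu]; ring
    · rw [bq_sub_left, bq_smul_left, h3, hpp]; ring
    · simp [hz, bq_sub_left, bq_smul_left, bq_comm a r, bq_comm u r, hra, hru, h]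
  by_cases hφ : bq p r = 0
  · by_cases hdep : ∃ c : F, r = c • p
    · obtain ⟨c, rfl⟩ := hdep
      obtain ⟨y, hy⟩ := exists_bq_ne hp0
      obtain ⟨w, w1, w2, w3, w4, -⟩ := proj ((bq y p)⁻¹ • y) (by rw [bq_smul_left, inv_mul_cancel₀ hy])
      refine ⟨w, w1, w2, w3, by rw [w4]; exact one_ne_zero, ?_⟩
      rw [bq_smul_right, w4, mul_one]
      exact fun e => hr0 (by rw [e, zero_smul])
    · obtain ⟨y, hy1, hy2⟩ := exists_bq_pair hp0 (fun c e => hdep ⟨c, e⟩) 1 1
      obtain ⟨w, w1, w2, w3, w4, w5⟩ := proj y hy1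
      exact ⟨w, w1, w2, w3, by rw [w4]; exact one_ne_zero, by rw [w5 hφ, hy2]; exact one_ne_zero⟩
  · have hrp : bq r p = bq p r := bq_comm r p
    have hrr : bq r r = 0 := by rw [bq_self, hr, mul_zero]
    obtain ⟨z, hza, hzu, hzp, hzr, hqz⟩ : ∃ z, bq z a = 0 ∧ bq z u = 0 ∧ bq z p = 0 ∧ bq z r = 0 ∧
        quadFormPlus N F z ≠ 0 := by
      let f : (Fin N ⊕ Fin N → F) →ₗ[F] Fin 4 → F :=
        { toFun := fun x => ![bq x a, bq x u, bq x p, bq x r]
          map_add' := fun x y => by ext i; fin_cases i <;> simp [bq_add_left]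
          map_smul' := fun c x => by ext i; fin_cases i <;> simp [bq_smul_left] }
      obtain ⟨z₀, hz₀, hz00⟩ := Submodule.exists_mem_ne_zero_of_ne_bot
        (LinearMap.ker_ne_bot_of_finrank_lt (f := f) (by simp; omega))
      have hk := LinearMap.mem_ker.1 hz₀
      have k0 : bq z₀ a = 0 := congrFun hk 0
      have k1 : bq z₀ u = 0 := congrFun hk 1
      have k2 : bq z₀ p = 0 := congrFun hk 2
      have k3 : bq z₀ r = 0 := congrFun hk 3
      obtain ⟨y, hy⟩ := exists_bq_ne hz00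
      set φ := bq p r with hφ'
      set y' := y - bq y u • a - bq y a • u - (bq y r / φ) • p - (bq y p / φ) • r with hy'
      have j0 : bq y' a = 0 := by simp [hy', bq_sub_left, bq_smul_left, haa, hua, hpa, hra]
      have j1 : bq y' u = 0 := by simp [hy', bq_sub_left, bq_smul_left, hau, huu, hpu, hru]
      have j2 : bq y' p = 0 := by
        simp [hy', bq_sub_left, bq_smul_left, bq_comm a p, bq_comm u p, hpa, hpu, hpp, hrp]
        field_simp
        ring
      have j3 : bq y' r = 0 := by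
        simp [hy', bq_sub_left, bq_smul_left, bq_comm a r, bq_comm u r, hra, hru, hrr, ← hφ']
        field_simp
        ring
      by_cases q0 : quadFormPlus N F z₀ = 0
      swap
      · exact ⟨z₀, k0, k1, k2, k3, q0⟩
      by_cases q1 : quadFormPlus N F y' = 0
      swap
      · exact ⟨y', j0, j1, j2, j3, q1⟩
      refine ⟨z₀ + y', by rw [bq_add_left, k0, j0, add_zero], by rw [bq_add_left, k1, j1, add_zero],
        by rw [bq_add_left, k2, j2, add_zero], by rw [bq_add_left, k3, j3, add_zero], ?_⟩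
      rw [qf_add, q0, q1, zero_add, zero_add]
      simpa [hy', bq_sub_right, bq_smul_right, k0, k1, k2, k3, bq_comm z₀ y] using hy
    set μ := -(quadFormPlus N F z) / bq p r with hμ
    refine ⟨p + μ • r + z, ?_, ?_, ?_, ?_, ?_⟩
    · rw [qf_add, qf_add, qf_smul, hp, hr, bq_smul_right, bq_add_left, bq_smul_left, bq_comm p z, bq_comm r z,
        hzp, hzr, hμ, div_mul_cancel₀ _ hφ]
      ring
    · simp [bq_add_left, bq_smul_left, hpa, hra, hza]
    · simp [bq_add_left, bq_smul_left, hpu, hru, hzu]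
    · simp [bq_add_left, bq_smul_left, hpp, hzp, hrp, hμ, hφ, hqz]
    · simpa [bq_add_left, bq_smul_left, hrr, hzr] using hφ

/-- Two lines through a common point have a common opposite line. -/
theorem exists_opposite (hN : 3 ≤ N) {a : Fin N ⊕ Fin N → F} (h : SPair a p) (h' : SPair a r) (ha : a ≠ 0)
    (hp : ∀ c : F, p ≠ c • a) (hr : ∀ c : F, r ≠ c • a) :
    ∃ (u w : Fin N ⊕ Fin N → F) (hs : SPair u w), u ≠ 0 ∧ (∀ c : F, w ≠ c • u) ∧
      IsPSL2PairOver F (T h) (T hs) ∧ IsPSL2PairOver F (T h') (T hs) := by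
  obtain ⟨y, hy⟩ := exists_bq_ne ha
  obtain ⟨y₁, hy₁a⟩ : ∃ z, bq z a = 1 := ⟨(bq y a)⁻¹ • y, by rw [bq_smul_left, inv_mul_cancel₀ hy]⟩
  set u := y₁ - quadFormPlus N F y₁ • a with hu'
  have hu : quadFormPlus N F u = 0 := by rw [hu', qf_sub, qf_smul, h.qp, bq_smul_right, hy₁a]; ring
  have hua : bq u a = 1 := by rw [hu', bq_sub_left, bq_smul_left, hy₁a, h.pp]; ring
  have hau : bq a u = 1 := by rw [bq_comm, hua]
  obtain ⟨w, w1, w2, w3, w4, w5⟩ := exists_common_plane hN (p := p - bq p u • a) (r := r - bq r u • a) h.qp hu hua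
    (by rw [qf_sub, qf_smul, h.qr, h.qp, bq_smul_right, h.rp]; ring)
    (by rw [qf_sub, qf_smul, h'.qr, h'.qp, bq_smul_right, h'.rp]; ring)
    (fun e => hp _ (sub_eq_zero.1 e)) (fun e => hr _ (sub_eq_zero.1 e))
    (by rw [bq_sub_left, bq_smul_left, h.rp, h.pp]; ring) (by rw [bq_sub_left, bq_smul_left, hau]; ring)
    (by rw [bq_sub_left, bq_smul_left, h'.rp, h.pp]; ring) (by rw [bq_sub_left, bq_smul_left, hau]; ring)
  rw [bq_sub_right, bq_smul_right, w2, mul_zero, sub_zero] at w4 w5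
  have hs : SPair u w := ⟨hu, w1, by rw [bq_comm, w3]⟩
  refine ⟨u, w, hs, fun e => ?_, fun c e => ?_, psl2_of_det h hs ?_, psl2_of_det h' hs ?_⟩
  · rw [e, bq_zero_left] at hua; exact zero_ne_one hua
  · rw [e, bq_smul_left, hua, mul_one] at w2
    rw [e, w2, zero_smul, bq_zero_left] at w4
    exact w4 rfl
  · rw [hau, bq_comm a w, w2, one_mul, zero_mul, sub_zero, bq_comm]; exact w4
  · rw [hau, bq_comm a w, w2, one_mul, zero_mul, sub_zero, bq_comm]; exact w5

lemma exists_singular_perp (hN : 3 ≤ N) (a b : Fin N ⊕ Fin N → F) :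
    ∃ c, c ≠ 0 ∧ quadFormPlus N F c = 0 ∧ bq c a = 0 ∧ bq c b = 0 := by
  let E : (Fin N → F) →ₗ[F] (Fin N ⊕ Fin N → F) :=
    { toFun := fun x => Sum.elim x 0
      map_add' := fun x y => by ext (i | i) <;> simp
      map_smul' := fun c x => by ext (i | i) <;> simp }
  let f : (Fin N → F) →ₗ[F] Fin 2 → F :=
    { toFun := fun x => ![bq (E x) a, bq (E x) b]
      map_add' := fun x y => by ext i; fin_cases i <;> simp [bq_add_left]
      map_smul' := fun c x => by ext i; fin_cases i <;> simp [bq_smul_left] }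
  obtain ⟨x, hx, hx0⟩ := Submodule.exists_mem_ne_zero_of_ne_bot
    (LinearMap.ker_ne_bot_of_finrank_lt (f := f) (by simp; omega))
  have hk := LinearMap.mem_ker.1 hx
  exact ⟨E x, fun e => hx0 (funext fun i => congrFun e (.inl i)), by simp [quadFormPlus, E], congrFun hk 0, congrFun hk 1⟩

/-- The singular lines are connected through `SL₂`-pairs. -/
theorem connected (hN : 3 ≤ N)
    (hS : ∀ {a b : Fin N ⊕ Fin N → F} (h : SPair a b), a ≠ 0 → (∀ c : F, b ≠ c • a) → T h ∈ S)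
    {a b : Fin N ⊕ Fin N → F} (h : SPair a p) (h' : SPair b r) (ha : a ≠ 0) (hp : ∀ c : F, p ≠ c • a)
    (hb : b ≠ 0) (hr : ∀ c : F, r ≠ c • b) :
    Relation.ReflTransGen (fun X Y => X ∈ S ∧ Y ∈ S ∧ IsPSL2PairOver F X Y ∨
      X ∈ S ∧ Y ∈ S ∧ IsPSL2PairOver F Y X) (T h) (T h') := by
  have share : ∀ {a p r : Fin N ⊕ Fin N → F} (h : SPair a p) (h' : SPair a r), a ≠ 0 → (∀ c : F, p ≠ c • a) →
      (∀ c : F, r ≠ c • a) → Relation.ReflTransGen (fun X Y => X ∈ S ∧ Y ∈ S ∧ IsPSL2PairOver F X Y ∨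
        X ∈ S ∧ Y ∈ S ∧ IsPSL2PairOver F Y X) (T h) (T h') := fun {a p r} h h' ha hp hr => by
    obtain ⟨u, w, hs, hu, hw, h1, h2⟩ := exists_opposite hN h h' ha hp hr
    exact (Relation.ReflTransGen.single (b := T hs) (Or.inl ⟨hS h ha hp, hS hs hu hw, h1⟩)).tail
      (Or.inr ⟨hS hs hu hw, hS h' ha hr, h2⟩)
  have swapT : ∀ {a c : Fin N ⊕ Fin N → F} (k : SPair a c) (k' : SPair c a), T k' = T k := fun k k' =>
    T_basis k k' (a := 0) (b := 1) (c := 1) (d := 0) (by module) (by module) (by simp)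
  have flip : ∀ {a c : Fin N ⊕ Fin N → F}, c ≠ 0 → (∀ t : F, c ≠ t • a) → a ≠ 0 → ∀ t : F, a ≠ t • c := by
    intro a c hc hca ha t e
    have ht : t ≠ 0 := fun e' => ha (by rw [e, e', zero_smul])
    exact hca t⁻¹ (by rw [e, inv_smul_smul₀ ht])
  by_cases hdep : ∃ t : F, b = t • a
  · obtain ⟨t, rfl⟩ := hdep
    have ht : t ≠ 0 := fun e => hb (by rw [e, zero_smul])
    have k : SPair a r := ⟨h.qp, h'.qr, by
      have := h'.pr; rw [bq_smul_left] at this; exact (mul_eq_zero.1 this).resolve_left ht⟩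
    have hra : ∀ c : F, r ≠ c • a := fun c e => hr (c / t) (by rw [e, smul_smul, div_mul_cancel₀ c ht])
    rw [T_basis k h' (a := t) (b := 0) (c := 0) (d := 1) (by module) (by module) (by simpa using ht)]
    exact share h k ha hp hra
  push Not at hdep
  have hba := flip hb hdep ha
  by_cases hab : bq a b = 0
  · have k : SPair a b := ⟨h.qp, h'.qp, hab⟩
    have k' : SPair b a := ⟨h'.qp, h.qp, by rw [bq_comm, hab]⟩
    refine (share h k ha hp hdep).trans ?_
    rw [← swapT k k']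
    exact share k' h' hb hba hr
  · obtain ⟨c, hc0, hqc, hca, hcb⟩ := exists_singular_perp hN a b
    have hca' : ∀ t : F, c ≠ t • a := fun t e => by
      rw [e, bq_smul_left] at hcb
      exact hc0 (by rw [e, (mul_eq_zero.1 hcb).resolve_right hab, zero_smul])
    have hcb' : ∀ t : F, c ≠ t • b := fun t e => by
      rw [e, bq_smul_left, bq_comm b a] at hca
      exact hc0 (by rw [e, (mul_eq_zero.1 hca).resolve_right hab, zero_smul])
    have k₁ : SPair a c := ⟨h.qp, hqc, by rw [bq_comm, hca]⟩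
    have k₁' : SPair c a := ⟨hqc, h.qp, hca⟩
    have k₂ : SPair c b := ⟨hqc, h'.qp, hcb⟩
    have k₂' : SPair b c := ⟨h'.qp, hqc, by rw [bq_comm, hcb]⟩
    refine (share h k₁ ha hp hca').trans ?_
    rw [← swapT k₁ k₁']
    refine (share k₁' k₂ hc0 (flip hc0 hca' ha) (flip hc0 hcb' hb)).trans ?_
    rw [← swapT k₂ k₂']
    exact share k₂' h' hb hcb' hr

end CfsgLib.FillTv.Siegel
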