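import Cfsg.Agent.FillTv.Basic
import Cfsg.Agent.SpGeom.Basic
import Cfsg.Agent.H10.RootTv

/-!
The symplectic transvection groups: two of them commute or generate an image of `SL₂`.
-/

set_option autoImplicit false

open Cfsg Matrix

namespace CfsgLib.FillTv

open CfsgLib.SpGeom Cfsg.Agent.H29.RankOneSL

variable {F : Type*} [Field F] {m : ℕ}

/-- `c ↦` the transvection with centre `p` and parameter `c`. -/
noncomputable def tvHom (p : Fin m ⊕ Fin m → F) : Multiplicative F →* Matrix.symplecticGroup (Fin m) F where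
  toFun c := SpGeom.tv p c.toAdd
  map_one' := SpGeom.tv_zero p
  map_mul' c d := (SpGeom.tv_mul p _ _).symm

/-- The transvection group with centre `p`. -/
noncomputable def T (p : Fin m ⊕ Fin m → F) : Subgroup (Matrix.symplecticGroup (Fin m) F) := (tvHom p).range

lemma mem_T {p : Fin m ⊕ Fin m → F} {g : Matrix.symplecticGroup (Fin m) F} :
    g ∈ T p ↔ ∃ c, g = SpGeom.tv p c :=
  ⟨fun ⟨c, hc⟩ => ⟨c.toAdd, hc.symm⟩, fun ⟨c, hc⟩ => ⟨Multiplicative.ofAdd c, hc.symm⟩⟩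

theorem closure_eq_T (p : Fin m ⊕ Fin m → F) :
    Subgroup.closure {g : Matrix.symplecticGroup (Fin m) F | ∃ c : F, ∀ v : Fin m ⊕ Fin m → F,
      (g : Matrix (Fin m ⊕ Fin m) (Fin m ⊕ Fin m) F) *ᵥ v = v + (c * (v ⬝ᵥ (Matrix.J (Fin m) F *ᵥ p))) • p}
      = T p := by
  refine le_antisymm ((Subgroup.closure_le _).2 ?_) fun g hg => Subgroup.subset_closure ?_
  · rintro g ⟨c, hc⟩
    exact mem_T.2 ⟨c, SpGeom.ext_mulVec fun v => (hc v).trans (SpGeom.tv_mulVec p c v).symm⟩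
  · obtain ⟨c, rfl⟩ := mem_T.1 hg
    exact ⟨c, SpGeom.tv_mulVec p c⟩

lemma T_smul {a : F} (ha : a ≠ 0) (p : Fin m ⊕ Fin m → F) : T (a • p) = T p := by
  ext g
  simp only [mem_T, SpGeom.tv_smul]
  exact ⟨fun ⟨c, hc⟩ => ⟨_, hc⟩, fun ⟨c, hc⟩ => ⟨c / a ^ 2, by
    rw [hc, mul_div_cancel₀ c (pow_ne_zero 2 ha)]⟩⟩

lemma T_conj (A : Matrix.symplecticGroup (Fin m) F) (p : Fin m ⊕ Fin m → F) :
    conjBy (T p) A = T ((A : Matrix (Fin m ⊕ Fin m) (Fin m ⊕ Fin m) F) *ᵥ p) := by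
  ext g
  rw [Subgroup.mem_map]
  simp only [mem_T]
  constructor
  · rintro ⟨_, ⟨c, rfl⟩, rfl⟩
    exact ⟨c, SpGeom.tv_conj A p c⟩
  · rintro ⟨c, rfl⟩
    exact ⟨_, ⟨c, rfl⟩, SpGeom.tv_conj A p c⟩

lemma T_comm (p : Fin m ⊕ Fin m → F) : IsMulCommutative (T p) := ⟨⟨fun a b => by
  obtain ⟨c, hc⟩ := mem_T.1 a.2
  obtain ⟨d, hd⟩ := mem_T.1 b.2
  ext1
  rw [Subgroup.coe_mul, Subgroup.coe_mul, hc, hd, SpGeom.tv_mul, SpGeom.tv_mul, add_comm]⟩⟩

lemma T_ne_bot {p : Fin m ⊕ Fin m → F} (hp : p ≠ 0) : T p ≠ ⊥ := fun e => by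
  obtain ⟨w, hw⟩ := SpGeom.exists_form_ne_zero hp
  have h := Subgroup.mem_bot.1 (e ▸ mem_T.2 ⟨1, rfl⟩ : SpGeom.tv p 1 ∈ (⊥ : Subgroup _))
  have h' := SpGeom.tv_mulVec p 1 w
  rw [h, SpGeom.coe_one', Matrix.one_mulVec, left_eq_add, smul_eq_zero, one_mul] at h'
  exact h'.elim (fun h => hw (by rw [SpGeom.form_skew, h, neg_zero])) hp

lemma T_commute {p r : Fin m ⊕ Fin m → F} (h : Cfsg.sympForm m F p r = 0) : ⁅T p, T r⁆ = ⊥ := by
  rw [RootGroups.commutator_eq_bot_iff]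
  intro a ha b hb
  obtain ⟨c, rfl⟩ := mem_T.1 ha
  obtain ⟨d, rfl⟩ := mem_T.1 hb
  refine SpGeom.ext_mulVec fun x => ?_
  have h' : Cfsg.sympForm m F r p = 0 := by rw [SpGeom.form_skew, h, neg_zero]
  rw [SpGeom.coe_mul', SpGeom.coe_mul', ← Matrix.mulVec_mulVec, ← Matrix.mulVec_mulVec]
  simp only [SpGeom.tv_mulVec, SpGeom.form_add_left, SpGeom.form_smul_left, h, h', mul_zero, add_zero]
  abel

/-- A hyperbolic pair gives an image of `SL₂`. -/
theorem psl2_hyperbolic {p r : Fin m ⊕ Fin m → F} (h : Cfsg.sympForm m F r p = 1) :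
    IsPSL2PairOver F (T p) (T r) := by
  have hvec : ∀ x y : Fin m ⊕ Fin m → F, (Matrix.J (Fin m) F *ᵥ y) ⬝ᵥ x = Cfsg.sympForm m F x y :=
    fun x y => dotProduct_comm _ _
  have hfv : (Matrix.J (Fin m) F *ᵥ p) ⬝ᵥ p = 0 := by rw [hvec, SpGeom.form_self]
  have hfw : (Matrix.J (Fin m) F *ᵥ p) ⬝ᵥ r = 1 := by rw [hvec, h]
  have hgv : (-(Matrix.J (Fin m) F *ᵥ r)) ⬝ᵥ p = 1 := by
    rw [neg_dotProduct, hvec, SpGeom.form_skew, h, neg_neg]
  have hgw : (-(Matrix.J (Fin m) F *ᵥ r)) ⬝ᵥ r = 0 := by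
    rw [neg_dotProduct, hvec, SpGeom.form_self, neg_zero]
  set f₀ := Matrix.J (Fin m) F *ᵥ p with hf₀
  set g₀ := -(Matrix.J (Fin m) F *ᵥ r) with hg₀
  set Φ := RootTv.pGL hfv hfw hgv hgw
  have hΦu : ∀ t : F, Φ (up t) = (SpGeom.tv p t).1 := fun t =>
    Matrix.ext_iff_mulVec.2 fun x => by
      rw [SpGeom.tv_mulVec, show Φ (up t) = RootTv.pmat p f₀ r g₀ (up t).1 from rfl, RootTv.pmat, up_val]
      simp [Matrix.add_mulVec, Matrix.smul_mulVec, vecMulVec_mulVec, hf₀, hvec, smul_smul]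
  have hΦl : ∀ t : F, Φ (lo t) = (SpGeom.tv r (-t)).1 := fun t =>
    Matrix.ext_iff_mulVec.2 fun x => by
      rw [SpGeom.tv_mulVec, show Φ (lo t) = RootTv.pmat p f₀ r g₀ (lo t).1 from rfl, RootTv.pmat, lo_val]
      simp [Matrix.add_mulVec, Matrix.smul_mulVec, vecMulVec_mulVec, Matrix.neg_mulVec, hg₀, hvec, smul_smul]
  have hmem : ∀ M, Φ M ∈ Matrix.symplecticGroup (Fin m) F := by
    intro M
    have hM : M ∈ lowerUnipotentSL2 F ⊔ upperUnipotentSL2 F := by rw [sup_eq_top]; trivial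
    rw [Subgroup.sup_eq_closure] at hM
    refine Subgroup.closure_induction (p := fun M _ => Φ M ∈ Matrix.symplecticGroup (Fin m) F)
      ?_ ?_ (fun a b _ _ ha hb => by rw [map_mul]; exact mul_mem ha hb) (fun a _ ha => ?_)
      hM
    · rintro x (hx | hx)
      · obtain ⟨t, rfl⟩ := mem_lower.1 hx; rw [hΦl]; exact (SpGeom.tv r _).2
      · obtain ⟨t, rfl⟩ := mem_upper.1 hx; rw [hΦu]; exact (SpGeom.tv p _).2
    · rw [map_one]; exact one_mem _
    · set B : Matrix.symplecticGroup (Fin m) F := ⟨Φ a, ha⟩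
      have h1 : Φ a⁻¹ * Φ a = 1 := by rw [← map_mul, inv_mul_cancel, map_one]
      have h2 : Φ a * (B⁻¹).1 = 1 := congrArg Subtype.val (mul_inv_cancel B)
      rw [left_inv_eq_right_inv h1 h2]
      exact (B⁻¹).2
  let φ : Matrix.SpecialLinearGroup (Fin 2) F →* Matrix.symplecticGroup (Fin m) F := Φ.codRestrict _ hmem
  have hinj : Function.Injective φ := by
    refine (injective_iff_map_eq_one φ).2 fun M hM => ?_
    have h1 : RootTv.pmat p f₀ r g₀ M.1 = 1 := congrArg Subtype.val hM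
    rw [RootTv.pmat, add_eq_left] at h1
    have key : ∀ (l x : Fin m ⊕ Fin m → F), l ⬝ᵥ (((M.1 0 0 - 1) • vecMulVec p g₀ + M.1 0 1 • vecMulVec p f₀ +
        M.1 1 0 • vecMulVec r g₀ + (M.1 1 1 - 1) • vecMulVec r f₀) *ᵥ x) = 0 := fun l x => by
      rw [h1, Matrix.zero_mulVec, dotProduct_zero]
    simp only [add_mulVec, smul_mulVec, vecMulVec_mulVec, op_smul_eq_smul, dotProduct_add, dotProduct_smul] at key
    have e00 := key g₀ p
    have e01 := key g₀ r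
    have e10 := key f₀ p
    have e11 := key f₀ r
    simp [hfv, hfw, hgv, hgw] at e00 e01 e10 e11
    exact ext2 (by simpa using sub_eq_zero.1 e00) (by simpa using e01) (by simpa using e10)
      (by simpa using sub_eq_zero.1 e11)
  have hU : (upperUnipotentSL2 F).map φ = T p := by
    ext g
    rw [Subgroup.mem_map, mem_T]
    constructor
    · rintro ⟨x, hx, rfl⟩
      obtain ⟨t, rfl⟩ := mem_upper.1 hx
      exact ⟨t, Subtype.ext (hΦu t)⟩
    · rintro ⟨t, rfl⟩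
      exact ⟨_, mem_upper.2 ⟨t, rfl⟩, Subtype.ext (hΦu t)⟩
  have hL : (lowerUnipotentSL2 F).map φ = T r := by
    ext g
    rw [Subgroup.mem_map, mem_T]
    constructor
    · rintro ⟨x, hx, rfl⟩
      obtain ⟨t, rfl⟩ := mem_lower.1 hx
      exact ⟨-t, Subtype.ext (hΦl t)⟩
    · rintro ⟨t, rfl⟩
      exact ⟨_, mem_lower.2 ⟨-t, rfl⟩, Subtype.ext ((hΦl (-t)).trans (by rw [neg_neg]))⟩
  refine ⟨φ, ?_, by rw [(MonoidHom.ker_eq_bot_iff φ).2 hinj]; exact bot_le, hU, hL⟩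
  rw [← hU, ← hL, ← Subgroup.map_sup, sup_comm, sup_eq_top, ← MonoidHom.range_eq_map]

theorem T_pair {p r : Fin m ⊕ Fin m → F} :
    ⁅T p, T r⁆ = ⊥ ∨ IsPSL2PairOver F (T p) (T r) := by
  by_cases h : Cfsg.sympForm m F p r = 0
  · exact Or.inl (T_commute h)
  · have h' : Cfsg.sympForm m F r p ≠ 0 := by rwa [SpGeom.form_skew, neg_ne_zero]
    refine Or.inr ?_
    rw [← T_smul (inv_ne_zero h') r]
    exact psl2_hyperbolic (by rw [SpGeom.form_smul_left, inv_mul_cancel₀ h'])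

theorem T_psl2 {p r : Fin m ⊕ Fin m → F} (h : Cfsg.sympForm m F p r ≠ 0) : IsPSL2PairOver F (T p) (T r) := by
  have h' : Cfsg.sympForm m F r p ≠ 0 := by rwa [SpGeom.form_skew, neg_ne_zero]
  rw [← T_smul (inv_ne_zero h') r]
  exact psl2_hyperbolic (by rw [SpGeom.form_smul_left, inv_mul_cancel₀ h'])

end CfsgLib.FillTv
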