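import Cfsg.Agent.FillTv.Restrict
import Cfsg.Agent.H10.RootTv
import Cfsg.Agent.UGeom.Simple
import Cfsg.Agent.UGeom.Lines

/-!
Unitary transvection groups: two of them commute or generate an image of `SL₂` over the fixed field.
-/

set_option autoImplicit false

open Cfsg Matrix

namespace CfsgLib.FillTv

open CfsgLib.UGeom Cfsg.Agent.H29.RankOneSL

variable {F : Type*} [Field F] [Fintype F] {q n : ℕ}

lemma mem_tsub {C : Conj F q} {v : Fin n → F} (hv : Cfsg.hermForm n F q v v = 0) {g : Cfsg.SU n F q} :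
    g ∈ tsub C v ↔ ∃ (c : F) (hc : c + C.σ c = 0), g = utv C v c hv hc := by
  constructor
  · rintro (⟨c, _, hc, rfl⟩ | hg)
    · exact ⟨c, hc, rfl⟩
    · exact ⟨0, by simp, (Set.mem_singleton_iff.1 hg).trans (utv_zero C v hv).symm⟩
  · rintro ⟨c, hc, rfl⟩
    exact Or.inl ⟨c, hv, hc, rfl⟩

/-- The group in the statement is the group of transvections `utv`. -/
theorem closure_eq_tsub (C : Conj F q) {p : Fin n → F} (hp : p ≠ 0) (hpp : Cfsg.hermForm n F q p p = 0) :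
    Subgroup.closure {g : ↥(Cfsg.SU n F q) |
      (∀ v : Fin n → F, ∃ c : F, ((g : Matrix.SpecialLinearGroup (Fin n) F) : Matrix (Fin n) (Fin n) F) *ᵥ v = v + c • p) ∧
      ∀ v : Fin n → F, Cfsg.hermForm n F q v p = 0 →
        ((g : Matrix.SpecialLinearGroup (Fin n) F) : Matrix (Fin n) (Fin n) F) *ᵥ v = v} = tsub C p := by
  refine le_antisymm ((Subgroup.closure_le _).2 ?_) fun g hg => Subgroup.subset_closure ?_
  · rintro g ⟨h1, h2⟩
    obtain ⟨y, hy⟩ := exists_dual C hp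
    obtain ⟨μ, hμ⟩ := h1 y
    have hpy : Cfsg.hermForm n F q p y = 1 := by rw [← form_conj C, hy, map_one]
    have hu := SU_form g y y
    rw [hμ, form_add_left, form_add_right C, form_add_right C, form_smul_left, form_smul_left,
      form_smul_right C, form_smul_right C, hpy, hy, hpp] at hu
    have hμσ : μ + C.σ μ = 0 := by linear_combination hu
    refine (mem_tsub hpp).2 ⟨μ, hμσ, SU_ext fun x => ?_⟩
    have h := h2 (x - Cfsg.hermForm n F q x p • y) (by rw [form_sub_left, form_smul_left, hy, mul_one, sub_self])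
    rw [Matrix.mulVec_sub, Matrix.mulVec_smul, hμ] at h
    rw [utv_mulVec, eq_add_of_sub_eq h]
    module
  · obtain ⟨c, hc, rfl⟩ := (mem_tsub hpp).1 hg
    exact ⟨fun v => ⟨_, utv_mulVec C p c hpp hc v⟩, fun v hv => by
      rw [utv_mulVec, hv, mul_zero, zero_smul, add_zero]⟩

lemma tsub_conj' (C : Conj F q) (A : Cfsg.SU n F q) (v : Fin n → F) :
    conjBy (tsub C v) A = tsub C ((A.1 : Matrix (Fin n) (Fin n) F) *ᵥ v) :=
  (tsub_conj C A v).symm

lemma tsub_ne_bot (C : Conj F q) {p : Fin n → F} (hp : p ≠ 0) (hpp : Cfsg.hermForm n F q p p = 0) :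
    tsub C p ≠ ⊥ := fun e => by
  obtain ⟨c, hc0, hc⟩ := exists_trace_zero C
  obtain ⟨y, hy⟩ := exists_dual C hp
  have h := Subgroup.mem_bot.1 (e ▸ (mem_tsub hpp).2 ⟨c, hc, rfl⟩ : utv C p c hpp hc ∈ (⊥ : Subgroup _))
  have h' := utv_mulVec C p c hpp hc y
  rw [h, hy, mul_one, show ((1 : Cfsg.SU n F q).1 : Matrix (Fin n) (Fin n) F) *ᵥ y = y from Matrix.one_mulVec y,
    left_eq_add, smul_eq_zero] at h'
  exact h'.elim hc0 hp

lemma tsub_commute (C : Conj F q) {p r : Fin n → F} (hpp : Cfsg.hermForm n F q p p = 0)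
    (hrr : Cfsg.hermForm n F q r r = 0) (h : Cfsg.hermForm n F q p r = 0) :
    ⁅tsub C p, tsub C r⁆ = ⊥ := by
  rw [RootGroups.commutator_eq_bot_iff]
  intro a ha b hb
  obtain ⟨c, hc, rfl⟩ := (mem_tsub hpp).1 ha
  obtain ⟨d, hd, rfl⟩ := (mem_tsub hrr).1 hb
  have h' : Cfsg.hermForm n F q r p = 0 := by rw [← form_conj C, h, map_zero]
  refine SU_ext fun x => ?_
  rw [SU_coe_mul, SU_coe_mul, ← Matrix.mulVec_mulVec, ← Matrix.mulVec_mulVec]
  simp only [utv_mulVec, form_add_left, form_smul_left, h, h', mul_zero, add_zero]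
  abel

variable {K : Type*} [Field K]

/-- A hyperbolic pair of isotropic vectors gives an image of `SL₂(K)`, `K` the fixed field. -/
theorem psl2_hyperbolic_unitary (C : Conj F q) (ι : K →+* F) (hι : ∀ x, C.σ x = x ↔ ∃ t, ι t = x)
    {p r : Fin n → F} (hpp : Cfsg.hermForm n F q p p = 0) (hrr : Cfsg.hermForm n F q r r = 0)
    (h : Cfsg.hermForm n F q r p = 1) : IsPSL2PairOver K (tsub C p) (tsub C r) := by
  obtain ⟨c₀, hc0, hc⟩ := exists_trace_zero C
  have hc' : C.σ c₀ = -c₀ := by linear_combination hc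
  have hpr : Cfsg.hermForm n F q p r = 1 := by rw [← form_conj C, h, map_one]
  have hvec : ∀ x y : Fin n → F, (fun j => y j ^ q) ⬝ᵥ x = Cfsg.hermForm n F q x y := fun x y =>
    dotProduct_comm _ _
  set f₀ : Fin n → F := fun j => p j ^ q with hf₀
  set g₀ : Fin n → F := c₀⁻¹ • fun j => r j ^ q with hg₀
  have hfv : f₀ ⬝ᵥ (c₀ • p) = 0 := by rw [hf₀, hvec, form_smul_left, hpp, mul_zero]
  have hfw : f₀ ⬝ᵥ r = 1 := by rw [hf₀, hvec, h]
  have hgv : g₀ ⬝ᵥ (c₀ • p) = 1 := by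
    rw [hg₀, smul_dotProduct, hvec, form_smul_left, hpr, mul_one, smul_eq_mul, inv_mul_cancel₀ hc0]
  have hgw : g₀ ⬝ᵥ r = 0 := by rw [hg₀, smul_dotProduct, hvec, hrr, smul_zero]
  set Φ : Matrix.SpecialLinearGroup (Fin 2) K →* Matrix (Fin n) (Fin n) F :=
    (RootTv.pGL hfv hfw hgv hgw).comp (Matrix.SpecialLinearGroup.map ι)
  have hfix : ∀ t, C.σ (ι t) = ι t := fun t => (hι _).2 ⟨t, rfl⟩
  have hu : ∀ t : K, ι t * c₀ + C.σ (ι t * c₀) = 0 := fun t => by
    rw [map_mul, hfix, hc']; ring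
  have hl : ∀ t : K, ι t * c₀⁻¹ + C.σ (ι t * c₀⁻¹) = 0 := fun t => by
    rw [map_mul, map_inv₀, hfix, hc', inv_neg]; ring
  have hΦu : ∀ t : K, Φ (up t) = (utv C p (ι t * c₀) hpp (hu t)).1.1 := fun t =>
    Matrix.ext_iff_mulVec.2 fun x => by
      rw [utv_mulVec, show Φ (up t) = RootTv.pmat (c₀ • p) f₀ r g₀ ((up t).1.map ι) from rfl,
        RootTv.pmat, up_val]
      simp [Matrix.add_mulVec, Matrix.smul_mulVec, vecMulVec_mulVec, hf₀, hvec, smul_smul, mul_right_comm]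
  have hΦl : ∀ t : K, Φ (lo t) = (utv C r (ι t * c₀⁻¹) hrr (hl t)).1.1 := fun t =>
    Matrix.ext_iff_mulVec.2 fun x => by
      rw [utv_mulVec, show Φ (lo t) = RootTv.pmat (c₀ • p) f₀ r g₀ ((lo t).1.map ι) from rfl,
        RootTv.pmat, lo_val]
      simp [Matrix.add_mulVec, Matrix.smul_mulVec, vecMulVec_mulVec, hg₀, hvec, smul_smul, mul_assoc]
  have hmem : ∀ M, ∃ A : Cfsg.SU n F q, A.1.1 = Φ M := by
    intro M
    have hM : M ∈ lowerUnipotentSL2 K ⊔ upperUnipotentSL2 K := by rw [sup_eq_top]; trivial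
    rw [Subgroup.sup_eq_closure] at hM
    refine Subgroup.closure_induction (p := fun M _ => ∃ A : Cfsg.SU n F q, A.1.1 = Φ M)
      ?_ ⟨1, (map_one Φ).symm⟩
      (fun a b _ _ ⟨A, hA⟩ ⟨B, hB⟩ => ⟨A * B, by rw [map_mul, ← hA, ← hB]; rfl⟩)
      (fun a _ ⟨A, hA⟩ => ⟨A⁻¹, ?_⟩) hM
    · rintro x (hx | hx)
      · obtain ⟨t, rfl⟩ := mem_lower.1 hx; exact ⟨_, (hΦl t).symm⟩
      · obtain ⟨t, rfl⟩ := mem_upper.1 hx; exact ⟨_, (hΦu t).symm⟩
    · have h1 : Φ a⁻¹ * Φ a = 1 := by rw [← map_mul, inv_mul_cancel, map_one]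
      have h2 : Φ a * (A⁻¹).1.1 = 1 := by
        rw [← hA, ← SU_coe_mul, mul_inv_cancel]; rfl
      exact (left_inv_eq_right_inv h1 h2).symm
  choose φ₀ hφ₀ using hmem
  have hext : ∀ {A B : Cfsg.SU n F q}, A.1.1 = B.1.1 → A = B := fun e => Subtype.ext (Subtype.ext e)
  let φ : Matrix.SpecialLinearGroup (Fin 2) K →* Cfsg.SU n F q :=
    { toFun := φ₀
      map_one' := hext (by rw [hφ₀, map_one]; rfl)
      map_mul' := fun a b => hext (by rw [hφ₀, SU_coe_mul, hφ₀, hφ₀, map_mul]) }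
  have hinj : Function.Injective φ := by
    refine (injective_iff_map_eq_one φ).2 fun M hM => ?_
    have h1 : RootTv.pmat (c₀ • p) f₀ r g₀ (M.1.map ι) = 1 := by
      have := congrArg (fun A : Cfsg.SU n F q => A.1.1) hM
      rwa [show (φ M).1.1 = Φ M from hφ₀ M] at this
    rw [RootTv.pmat, add_eq_left] at h1
    generalize hv₀ : c₀ • p = v₀ at h1 hfv hgv
    have key : ∀ (l x : Fin n → F), l ⬝ᵥ ((((M.1.map ι) 0 0 - 1) • vecMulVec v₀ g₀ +
        (M.1.map ι) 0 1 • vecMulVec v₀ f₀ + (M.1.map ι) 1 0 • vecMulVec r g₀ +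
        ((M.1.map ι) 1 1 - 1) • vecMulVec r f₀) *ᵥ x) = 0 := fun l x => by
      rw [h1, Matrix.zero_mulVec, dotProduct_zero]
    simp only [add_mulVec, smul_mulVec, vecMulVec_mulVec, op_smul_eq_smul, dotProduct_add,
      dotProduct_smul] at key
    have e00 := key g₀ v₀
    have e01 := key g₀ r
    have e10 := key f₀ v₀
    have e11 := key f₀ r
    simp only [hfv, hfw, hgv, hgw, smul_eq_mul, mul_one, mul_zero, add_zero, zero_add,
      Matrix.map_apply] at e00 e01 e10 e11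
    exact ext2 (ι.injective (by simpa using sub_eq_zero.1 e00)) (ι.injective (by simpa using e01))
      (ι.injective (by simpa using e10)) (ι.injective (by simpa using sub_eq_zero.1 e11))
  have hK : ∀ {c e : F}, c + C.σ c = 0 → e + C.σ e = 0 → e ≠ 0 → ∃ t, ι t * e = c := fun {c e} hc he he0 => by
    obtain ⟨t, ht⟩ := (hι (c / e)).1 (by
      rw [map_div₀, show C.σ c = -c by linear_combination hc, show C.σ e = -e by linear_combination he,
        neg_div_neg_eq])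
    exact ⟨t, by rw [ht, div_mul_cancel₀ _ he0]⟩
  have hU : (upperUnipotentSL2 K).map φ = tsub C p := by
    ext g
    rw [Subgroup.mem_map, mem_tsub hpp]
    constructor
    · rintro ⟨x, hx, rfl⟩
      obtain ⟨t, rfl⟩ := mem_upper.1 hx
      exact ⟨_, hu t, hext ((hφ₀ _).trans (hΦu t))⟩
    · rintro ⟨c, hcc, rfl⟩
      obtain ⟨t, ht⟩ := hK hcc hc hc0
      subst ht
      exact ⟨_, mem_upper.2 ⟨t, rfl⟩, hext ((hφ₀ _).trans (hΦu t))⟩
  have hL : (lowerUnipotentSL2 K).map φ = tsub C r := by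
    ext g
    rw [Subgroup.mem_map, mem_tsub hrr]
    constructor
    · rintro ⟨x, hx, rfl⟩
      obtain ⟨t, rfl⟩ := mem_lower.1 hx
      exact ⟨_, hl t, hext ((hφ₀ _).trans (hΦl t))⟩
    · rintro ⟨c, hcc, rfl⟩
      obtain ⟨t, ht⟩ := hK hcc (by simpa using hl 1) (inv_ne_zero hc0)
      subst ht
      exact ⟨_, mem_lower.2 ⟨t, rfl⟩, hext ((hφ₀ _).trans (hΦl t))⟩
  refine ⟨φ, ?_, by rw [(MonoidHom.ker_eq_bot_iff φ).2 hinj]; exact bot_le, hU, hL⟩
  rw [← hU, ← hL, ← Subgroup.map_sup, sup_comm, sup_eq_top, ← MonoidHom.range_eq_map]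

theorem tsub_psl2 (C : Conj F q) (ι : K →+* F) (hι : ∀ x, C.σ x = x ↔ ∃ t, ι t = x)
    {p r : Fin n → F} (hpp : Cfsg.hermForm n F q p p = 0) (hrr : Cfsg.hermForm n F q r r = 0)
    (h : Cfsg.hermForm n F q r p ≠ 0) : IsPSL2PairOver K (tsub C p) (tsub C r) := by
  rw [← tsub_smul_vec C (inv_ne_zero h) r]
  exact psl2_hyperbolic_unitary C ι hι hpp
    (by rw [form_smul_left, form_smul_right C, hrr, mul_zero, mul_zero])
    (by rw [form_smul_left, inv_mul_cancel₀ h])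

theorem exists_isotropic (C : Conj F q) (n : ℕ) :
    ∃ p : Fin (n + 2) → F, p ≠ 0 ∧ Cfsg.hermForm (n + 2) F q p p = 0 := by
  obtain ⟨c, -, hc⟩ := CfsgLib.Hermitian.exists_norm C.ne_id C.invol (a := (-1 : F))
    (neg_ne_zero.2 one_ne_zero) (by rw [map_neg, map_one])
  refine ⟨Pi.single 0 1 + c • Pi.single 1 1, fun e => ?_, ?_⟩
  · simpa using congrFun e 0
  · simp only [form_add_left, form_add_right C, form_smul_left, form_smul_right C, form_single_right C]
    simp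
    linear_combination hc

/-- A copy in `Type` of the fixed field. -/
theorem exists_fixed_field (C : Conj F q) : ∃ (L : Type) (_ : Field L) (_ : Fintype L) (ι : L →+* F),
    Fintype.card L = q ∧ ∀ x, C.σ x = x ↔ ∃ t, ι t = x := by
  classical
  let Fix : Subfield F := RingHom.eqLocusField C.σ (RingHom.id F)
  have hmem : ∀ x : F, x ∈ Fix ↔ C.σ x = x := fun x => Iff.rfl
  let e : Shrink.{0} Fix ≃+* Fix := Shrink.ringEquiv.{0} Fix
  refine ⟨Shrink.{0} Fix, inferInstance, inferInstance, Fix.subtype.comp e.toRingHom, ?_, fun x => ?_⟩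
  · rw [← Nat.card_eq_fintype_card, Nat.card_congr e.toEquiv, ← card_fixed C]
    exact Nat.card_congr (Equiv.subtypeEquivRight fun x => hmem x)
  · constructor
    · exact fun hx => ⟨e.symm ⟨x, (hmem x).2 hx⟩, by simp⟩
    · rintro ⟨t, rfl⟩
      exact (hmem _).1 (e t).2

end CfsgLib.FillTv
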